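import Mathlib
import Cfsg.Agent.H21.Embed

set_option autoImplicit false

namespace Cfsg.Agent.H21

open Subgroup

/-- **Odd permutation argument**: in a non-abelian simple group acting on a finite set, an
involution moves a number of points divisible by `4`. -/
theorem simple_involution_four_dvd {G X : Type*} [Group G] [IsSimpleGroup G]
    (hG : ¬ IsMulCommutative G) [MulAction G X] [Finite X] (t : G) (ht : t ^ 2 = 1) :
    4 ∣ Nat.card X - Nat.card (MulAction.fixedBy X t) := by
  classical
  have := Fintype.ofFinite X
  obtain ⟨σ, hσ⟩ : ∃ σ : Equiv.Perm X, σ = MulAction.toPermHom G X t := ⟨_, rfl⟩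
  have hsign : Equiv.Perm.sign σ = 1 := by
    rw [hσ]
    exact simple_hom_comm_trivial hG (Equiv.Perm.sign.comp (MulAction.toPermHom G X)) t
  have hσ2 : σ ^ 2 = 1 := by rw [hσ, ← map_pow, ht, map_one]
  have hfix : Nat.card (MulAction.fixedBy X t) = Fintype.card (Function.fixedPoints σ) := by
    rw [Nat.card_eq_fintype_card]
    apply Fintype.card_congr
    refine Equiv.subtypeEquivRight (fun x => ?_)
    rw [hσ]
    exact Iff.rfl
  rw [hfix, Equiv.Perm.card_fixedPoints, Nat.card_eq_fintype_card]
  have hle := σ.sum_cycleType_le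
  rw [Nat.sub_sub_self hle]
  by_cases h1 : σ = 1
  · simp [h1]
  · have hord : orderOf σ = 2 := orderOf_eq_prime hσ2 h1
    obtain ⟨n, hn⟩ := Equiv.Perm.cycleType_prime_order (σ := σ) (by rw [hord]; exact Nat.prime_two)
    rw [hord] at hn
    have hs := Equiv.Perm.sign_of_cycleType σ
    rw [hn, Multiset.sum_replicate, Multiset.card_replicate, hsign] at hs
    rw [hn, Multiset.sum_replicate, smul_eq_mul]
    have heven : Even (n + 1) := by
      by_contra hodd
      rw [Nat.not_even_iff_odd] at hodd
      have h3 : Odd ((n + 1) • 2 + (n + 1)) := by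
        rw [smul_eq_mul]
        exact Even.add_odd (by simp) hodd
      rw [h3.neg_one_pow] at hs
      exact absurd hs (by decide)
    obtain ⟨k, hk⟩ := heven
    exact ⟨k, by omega⟩

end Cfsg.Agent.H21
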