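import Mathlib

set_option autoImplicit false

namespace Cfsg.Agent.H21

open MulAction

/-- If a group acts on a finite set and every orbit has size divisible by `n`,
then `n` divides the size of the set. -/
theorem dvd_card_of_dvd_card_orbits {P X : Type*} [Group P] [MulAction P X] [Finite X] (n : ℕ)
    (h : ∀ x : X, n ∣ Nat.card (MulAction.orbit P x)) :
    n ∣ Nat.card X := by
  classical
  have := Fintype.ofFinite X
  rw [Nat.card_congr (Equiv.sigmaFiberEquiv (@Quotient.mk'' _ (MulAction.orbitRel P X))).symm,
    Nat.card_sigma]
  have hfib : ∀ x : X, Nat.card {y : X // (Quotient.mk'' y : Quotient (MulAction.orbitRel P X)) = Quotient.mk'' x}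
      = Nat.card (MulAction.orbit P x) := by
    intro x
    apply Nat.card_congr
    refine Equiv.subtypeEquivRight ?_
    intro y
    rw [Quotient.eq'']
    rfl
  apply Finset.dvd_sum
  intro ω _
  induction ω using Quotient.inductionOn' with
  | h x =>
    rw [hfib]
    exact h x

/-- orbit size times stabilizer size is the group order (Nat.card version). -/
theorem card_orbit_mul_card_stabilizer {P X : Type*} [Group P] [MulAction P X] (x : X) :
    Nat.card (MulAction.orbit P x) * Nat.card (MulAction.stabilizer P x) = Nat.card P := by
  rw [Nat.card_coe_set_eq, ← MulAction.index_stabilizer, mul_comm]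
  exact Subgroup.card_mul_index _

end Cfsg.Agent.H21
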