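import Mathlib
import Cfsg.Agent.H21.Orbits2

set_option autoImplicit false

namespace Cfsg.Agent.H21

open Subgroup

/-- Class equation for one class: `|g^G| * |C_G(g)| = |G|`. -/
theorem card_conj_mul_card_centralizer {G : Type*} [Group G] [Finite G] (g : G) :
    Nat.card {h : G // IsConj g h} * Nat.card (centralizer ({g} : Set G)) = Nat.card G := by
  have h1 := card_orbit_mul_card_stabilizer (P := ConjAct G) (X := G) g
  have h2 : Nat.card {h : G // IsConj g h} = Nat.card (MulAction.orbit (ConjAct G) g) := by
    apply Nat.card_congr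
    refine Equiv.subtypeEquivRight (fun h => ?_)
    rw [ConjAct.mem_orbit_conjAct]
    exact isConj_comm
  rw [h2, Subgroup.nat_card_centralizer_nat_card_stabilizer, h1]
  rfl

/-- Conjugate elements have centralizers of the same order. -/
theorem card_centralizer_conj {G : Type*} [Group G] [Finite G] (g c : G) :
    Nat.card (centralizer ({c * g * c⁻¹} : Set G)) = Nat.card (centralizer ({g} : Set G)) := by
  have h1 := card_conj_mul_card_centralizer g
  have h2 := card_conj_mul_card_centralizer (c * g * c⁻¹)
  have h3 : Nat.card {h : G // IsConj (c * g * c⁻¹) h} = Nat.card {h : G // IsConj g h} := by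
    apply Nat.card_congr
    refine Equiv.subtypeEquivRight (fun h => ?_)
    have hc : IsConj g (c * g * c⁻¹) := isConj_iff.2 ⟨c, rfl⟩
    exact ⟨fun hh => hc.trans hh, fun hh => hc.symm.trans hh⟩
  rw [h3, ← h1] at h2
  have hpos : 0 < Nat.card {h : G // IsConj g h} := Nat.card_pos_iff.2 ⟨⟨⟨g, IsConj.refl g⟩⟩, inferInstance⟩
  exact Nat.eq_of_mul_eq_mul_left hpos h2

end Cfsg.Agent.H21
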