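import Mathlib

set_option autoImplicit false

namespace Cfsg.Agent.H21

open Subgroup

/-- Relative Sylow conjugacy: if `K ≤ N` is a `p`-subgroup and `P ≤ N` is a Sylow `p`-subgroup
of `G`, then some `N`-conjugate of `K` lies in `P`. -/
theorem exists_mem_conj_le_sylow {G : Type*} [Group G] [Finite G] {p : ℕ} [Fact p.Prime]
    (N : Subgroup G) (P : Sylow p G) (hPN : (P : Subgroup G) ≤ N) (K : Subgroup G)
    (hK : IsPGroup p K) (hKN : K ≤ N) :
    ∃ n ∈ N, ∀ x ∈ K, n * x * n⁻¹ ∈ (P : Subgroup G) := by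
  have hK' : IsPGroup p (K.subgroupOf N) :=
    hK.comap_of_injective N.subtype N.subtype_injective
  obtain ⟨S, hS⟩ := hK'.exists_le_sylow
  obtain ⟨n, hn⟩ := MulAction.exists_smul_eq N S (P.subtype hPN)
  refine ⟨n.1, n.2, fun x hx => ?_⟩
  have hxS : (⟨x, hKN hx⟩ : N) ∈ (S : Subgroup N) := hS (by
    rw [Subgroup.mem_subgroupOf]; exact hx)
  have h1 : n * ⟨x, hKN hx⟩ * n⁻¹ ∈ ((P.subtype hPN : Sylow p N) : Subgroup N) := by
    rw [← hn, Sylow.smul_def, Sylow.pointwise_smul_def]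
    have := Subgroup.smul_mem_pointwise_smul (⟨x, hKN hx⟩ : N) (MulAut.conj n) (S : Subgroup N) hxS
    simpa [MulAut.smul_def] using this
  rw [Sylow.coe_subtype, Subgroup.mem_subgroupOf] at h1
  simpa using h1

end Cfsg.Agent.H21
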