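import Mathlib

set_option autoImplicit false

namespace Cfsg.Agent.H21

/-- An automorphism of prime order `ℓ > p` of a group of order `p ^ 2` forces `ℓ = p + 1`. -/
theorem aut_prime_order_of_card_sq {H : Type*} [Group H] [Finite H] (p ℓ : ℕ) (hp : p.Prime)
    (hℓ : ℓ.Prime) (hlt : p < ℓ) (hH : Nat.card H = p ^ 2) (α : MulAut H) (hα : orderOf α = ℓ) :
    ℓ = p + 1 := by
  have : Fact ℓ.Prime := ⟨hℓ⟩
  -- the fixed point subgroup
  let F : Subgroup H := MonoidHom.eqLocus α.toMonoidHom (MonoidHom.id H)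
  have hA : IsPGroup ℓ (Subgroup.zpowers α) := by
    apply IsPGroup.of_card (n := 1)
    rw [Nat.card_zpowers, hα, pow_one]
  have hmod := hA.card_modEq_card_fixedPoints H
  have hfix : MulAction.fixedPoints (Subgroup.zpowers α) H = (F : Set H) := by
    ext h
    simp only [MulAction.mem_fixedPoints, SetLike.mem_coe]
    constructor
    · intro hh
      exact hh ⟨α, Subgroup.mem_zpowers α⟩
    · intro hh β
      obtain ⟨β, hβ⟩ := β
      obtain ⟨k, rfl⟩ := Subgroup.mem_zpowers_iff.1 hβ
      show (α ^ k) h = h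
      have h1 : α h = h := hh
      have h2 : ∀ m : ℕ, (α ^ m) h = h := by
        intro m
        induction m with
        | zero => simp
        | succ m ih => rw [pow_succ, MulAut.mul_apply, h1, ih]
      have h3 : (α⁻¹) h = h := by
        rw [MulAut.inv_apply]
        exact (MulEquiv.symm_apply_eq α).2 h1.symm
      have h4 : ∀ m : ℕ, ((α⁻¹) ^ m) h = h := by
        intro m
        induction m with
        | zero => simp
        | succ m ih => rw [pow_succ, MulAut.mul_apply, h3, ih]
      rcases Int.eq_nat_or_neg k with ⟨m, rfl | rfl⟩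
      · rw [zpow_natCast]; exact h2 m
      · rw [zpow_neg, zpow_natCast, ← inv_pow]; exact h4 m
  rw [hfix] at hmod
  have hFcard : Nat.card (F : Set H) = Nat.card F := rfl
  rw [hFcard, hH] at hmod
  have hFdvd : Nat.card F ∣ p ^ 2 := hH ▸ Subgroup.card_subgroup_dvd_card F
  obtain ⟨j, hj2, hj⟩ := (Nat.dvd_prime_pow hp).1 hFdvd
  have hp2 := hp.two_le
  have hℓ2 := hℓ.two_le
  have hjne : j ≠ 2 := by
    rintro rfl
    have hFtop : F = ⊤ := Subgroup.eq_top_of_card_eq F (by rw [hj, hH])
    have hα1 : α = 1 := by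
      apply MulEquiv.ext
      intro h
      have : h ∈ F := hFtop ▸ Subgroup.mem_top h
      exact this
    rw [hα1, orderOf_one] at hα
    omega
  rw [hj] at hmod
  have hdvd : ℓ ∣ p ^ 2 - p ^ j := (Nat.modEq_iff_dvd' (Nat.pow_le_pow_right hp.pos hj2)).1 hmod.symm
  interval_cases j
  · -- card F = 1 : ℓ ∣ p^2 - 1 = (p-1)(p+1)
    have h1 : p ^ 2 - p ^ 0 = (p - 1) * (p + 1) := by
      obtain ⟨c, rfl⟩ : ∃ c, p = c + 1 := ⟨p - 1, by omega⟩
      simp only [pow_zero, Nat.add_sub_cancel]
      have : (c + 1) ^ 2 = c * (c + 1 + 1) + 1 := by ring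
      rw [this]; simp
    rw [h1] at hdvd
    rcases (Nat.Prime.dvd_mul hℓ).1 hdvd with h | h
    · have := Nat.le_of_dvd (by omega) h
      omega
    · have := Nat.le_of_dvd (by omega) h
      omega
  · -- card F = p : ℓ ∣ p^2 - p = p (p - 1)
    have h1 : p ^ 2 - p ^ 1 = p * (p - 1) := by
      obtain ⟨c, rfl⟩ : ∃ c, p = c + 1 := ⟨p - 1, by omega⟩
      simp only [pow_one, Nat.add_sub_cancel]
      have : (c + 1) ^ 2 = (c + 1) * c + (c + 1) := by ring
      rw [this]; simp
    rw [h1] at hdvd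
    exfalso
    rcases (Nat.Prime.dvd_mul hℓ).1 hdvd with h | h
    · have := Nat.le_of_dvd (by omega) h
      omega
    · have := Nat.le_of_dvd (by omega) h
      omega
  · exact absurd rfl hjne

end Cfsg.Agent.H21
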