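import Mathlib
import Cfsg.Agent.H21.PrimeSylow

set_option autoImplicit false

namespace Cfsg.Agent.H21

open Subgroup

/-- Fixed points of `g` are fixed by its powers. -/
theorem card_fixedBy_le_card_fixedBy_pow {G X : Type*} [Group G] [MulAction G X] [Finite X]
    (g : G) (j : ℕ) :
    Nat.card (MulAction.fixedBy X g) ≤ Nat.card (MulAction.fixedBy X (g ^ j)) := by
  have hmem : ∀ a : X, g • a = a → g ^ j • a = a := by
    intro a ha
    induction j with
    | zero => simp
    | succ n ih => rw [pow_succ, mul_smul, ha, ih]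
  refine Nat.card_le_card_of_injective (fun a => ⟨a.1, hmem a.1 a.2⟩) ?_
  intro a b hab
  have h : (a : X) = (b : X) := congrArg (fun t : MulAction.fixedBy X (g ^ j) => (t : X)) hab
  exact Subtype.ext h

/-- Conjugate elements have the same number of fixed points. -/
theorem card_fixedBy_conj {G X : Type*} [Group G] [MulAction G X] (c x : G) :
    Nat.card (MulAction.fixedBy X (c * x * c⁻¹)) = Nat.card (MulAction.fixedBy X x) := by
  refine Nat.card_congr ⟨fun a => ⟨c⁻¹ • a.1, ?_⟩, fun a => ⟨c • a.1, ?_⟩, ?_, ?_⟩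
  · have ha : (c * x * c⁻¹) • a.1 = a.1 := a.2
    show x • c⁻¹ • a.1 = c⁻¹ • a.1
    calc x • c⁻¹ • a.1 = c⁻¹ • ((c * x * c⁻¹) • a.1) := by simp [mul_smul]
      _ = c⁻¹ • a.1 := by rw [ha]
  · have ha : x • a.1 = a.1 := a.2
    show (c * x * c⁻¹) • c • a.1 = c • a.1
    calc (c * x * c⁻¹) • c • a.1 = c • (x • a.1) := by simp [mul_smul]
      _ = c • a.1 := by rw [ha]
  · intro a; ext; simp
  · intro a; ext; simp

/-- Double counting for a normal subset `S` of `G` on which the number of fixed cosets of `H`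
is constant: `|S| * f = [G : H] * |S ∩ H|`. -/
theorem card_normal_mul_fixedBy {G : Type*} [Group G] [Finite G] (H : Subgroup G) (S : G → Prop)
    (hS : ∀ g u, S u → S (g * u * g⁻¹)) (f : ℕ)
    (hf : ∀ u, S u → Nat.card (MulAction.fixedBy (G ⧸ H) u) = f) :
    Nat.card {u : G // S u} * f = H.index * Nat.card {u : G // S u ∧ u ∈ H} := by
  classical
  have := Fintype.ofFinite G
  have h2 : ∀ c : G ⧸ H, Nat.card {y : G // S y ∧ y • c = c} =
      Nat.card {g : G // S g ∧ g ∈ H} := by
    intro c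
    induction c using QuotientGroup.induction_on with
    | H g =>
      have key : ∀ y : G, y • (g : G ⧸ H) = (g : G ⧸ H) ↔ g⁻¹ * y * g ∈ H := by
        intro y
        rw [eq_comm]
        show (g : G ⧸ H) = ((y * g : G) : G ⧸ H) ↔ _
        rw [QuotientGroup.eq]
        simp [mul_assoc]
      refine Nat.card_congr ⟨fun a => ⟨g⁻¹ * a.1 * g, ?_, ?_⟩, fun a => ⟨g * a.1 * g⁻¹, ?_, ?_⟩,
        ?_, ?_⟩
      · have := hS g⁻¹ a.1 a.2.1
        rwa [inv_inv] at this
      · exact (key a.1).1 a.2.2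
      · exact hS g a.1 a.2.1
      · rw [key]
        have : g⁻¹ * (g * a.1 * g⁻¹) * g = a.1 := by group
        rw [this]
        exact a.2.2
      · intro a; ext; simp [mul_assoc]
      · intro a; ext; simp [mul_assoc]
  let e1 : {p : (G ⧸ H) × G // S p.2 ∧ p.2 • p.1 = p.1} ≃
      Σ y : {g : G // S g}, MulAction.fixedBy (G ⧸ H) y.1 :=
    { toFun := fun p => ⟨⟨p.1.2, p.2.1⟩, ⟨p.1.1, p.2.2⟩⟩
      invFun := fun q => ⟨(q.2.1, q.1.1), q.1.2, q.2.2⟩
      left_inv := fun p => rfl
      right_inv := fun q => rfl }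
  let e2 : {p : (G ⧸ H) × G // S p.2 ∧ p.2 • p.1 = p.1} ≃
      Σ c : G ⧸ H, {y : G // S y ∧ y • c = c} :=
    { toFun := fun p => ⟨p.1.1, ⟨p.1.2, p.2⟩⟩
      invFun := fun q => ⟨(q.1, q.2.1), q.2.2⟩
      left_inv := fun p => rfl
      right_inv := fun q => rfl }
  have h3 := Nat.card_congr (e1.symm.trans e2)
  rw [Nat.card_sigma, Nat.card_sigma] at h3
  have h1 : ∀ y : {g : G // S g}, Nat.card (MulAction.fixedBy (G ⧸ H) y.1) = f :=
    fun y => hf y.1 y.2
  simp only [h1, h2] at h3
  simp only [Finset.sum_const, Finset.card_univ, smul_eq_mul] at h3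
  rw [← Nat.card_eq_fintype_card, ← Nat.card_eq_fintype_card] at h3
  rw [h3]
  rfl

/-- A `p`-group acting freely by conjugation on a subset `J` of `G`: `p ∣ |J|`. -/
theorem dvd_card_of_conj_free {G : Type*} [Group G] [Finite G] {p : ℕ} [Fact p.Prime]
    (P : Subgroup G) (hP : IsPGroup p P) (J : G → Prop)
    (hJ : ∀ x ∈ P, ∀ u, J u → J (x * u * x⁻¹))
    (hfree : ∀ u, J u → ∃ x ∈ P, x * u * x⁻¹ ≠ u) : p ∣ Nat.card {u : G // J u} := by
  classical
  let act : MulAction P {u : G // J u} :=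
    { smul := fun r s => ⟨(r : G) * s.1 * (r : G)⁻¹, hJ r r.2 s.1 s.2⟩
      one_smul := fun s => Subtype.ext (by
        show ((1 : P) : G) * s.1 * ((1 : P) : G)⁻¹ = s.1
        simp)
      mul_smul := fun a b s => Subtype.ext (by
        show ((a * b : P) : G) * s.1 * ((a * b : P) : G)⁻¹ =
          (a : G) * ((b : G) * s.1 * (b : G)⁻¹) * (a : G)⁻¹
        simp [mul_assoc]) }
  have h1 := hP.card_modEq_card_fixedPoints {u : G // J u}
  have h2 : Nat.card (MulAction.fixedPoints P {u : G // J u}) = 0 := by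
    rw [Nat.card_eq_zero]
    left
    constructor
    rintro ⟨u, hu⟩
    obtain ⟨x, hx, hne⟩ := hfree u.1 u.2
    apply hne
    have := hu ⟨x, hx⟩
    exact congrArg Subtype.val this
  rw [h2] at h1
  exact (Nat.modEq_zero_iff_dvd).1 h1

/-- An element of a subgroup `Z` with at most two elements is fixed by any conjugation
preserving `Z`. -/
theorem conj_eq_of_card_le_two {G : Type*} [Group G] [Finite G] (Z : Subgroup G)
    (hZ : Nat.card Z ≤ 2) (y c : G) (hc : c ∈ Z) (hyc : y * c * y⁻¹ ∈ Z) : y * c * y⁻¹ = c := by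
  by_contra hne
  have hc1 : c ≠ 1 := by
    rintro rfl
    apply hne
    simp
  have hd1 : y * c * y⁻¹ ≠ 1 := by
    intro h
    apply hc1
    have : c = y⁻¹ * (y * c * y⁻¹) * y := by group
    rw [this, h]
    simp
  have hsub : ({1, c, y * c * y⁻¹} : Set G) ⊆ (Z : Set G) := by
    intro a ha
    rcases ha with rfl | rfl | rfl
    · exact Z.one_mem
    · exact hc
    · exact hyc
  have h3 : ({1, c, y * c * y⁻¹} : Set G).ncard = 3 := by
    rw [Set.ncard_insert_of_notMem, Set.ncard_pair (Ne.symm hne)]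
    intro h
    rcases h with h | h
    · exact hc1 h.symm
    · exact hd1 h.symm
  have h4 := Set.ncard_le_ncard hsub (Set.toFinite _)
  rw [h3] at h4
  have h5 : (Z : Set G).ncard = Nat.card Z := (Nat.card_coe_set_eq _).symm
  omega

end Cfsg.Agent.H21
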