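import Mathlib

set_option autoImplicit false

namespace Cfsg.Agent.H21

open Subgroup

/-- Solutions of `2a = 0` in `ZMod (2^m)`. -/
theorem zmod_two_mul_eq_zero (m : ℕ) (hm : 1 ≤ m) (a : ZMod (2 ^ m)) (h : 2 * a = 0) :
    a = 0 ∨ a = ((2 ^ (m - 1) : ℕ) : ZMod (2 ^ m)) := by
  have : NeZero (2 ^ m) := ⟨by positivity⟩
  have hlt : a.val < 2 ^ m := ZMod.val_lt a
  have h2 : ((2 * a.val : ℕ) : ZMod (2 ^ m)) = 0 := by
    push_cast
    rw [ZMod.natCast_zmod_val]
    exact h
  rw [ZMod.natCast_eq_zero_iff] at h2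
  have hpow : 2 ^ m = 2 * 2 ^ (m - 1) := by
    rw [← pow_succ']; congr 1; omega
  have h2' : 2 * 2 ^ (m - 1) ∣ 2 * a.val := by rw [← hpow]; exact h2
  have hlt' : a.val < 2 * 2 ^ (m - 1) := by rw [← hpow]; exact hlt
  have h3 : 2 ^ (m - 1) ∣ a.val := (Nat.mul_dvd_mul_iff_left (by norm_num)).1 h2'
  obtain ⟨c, hc⟩ := h3
  have hc2 : c < 2 := by
    by_contra hcon
    have : 2 ^ (m - 1) * 2 ≤ 2 ^ (m - 1) * c := Nat.mul_le_mul_left _ (by omega)
    omega
  have ha : a = ((a.val : ℕ) : ZMod (2 ^ m)) := (ZMod.natCast_zmod_val a).symm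
  interval_cases c
  · left; rw [ha, hc]; simp
  · right; rw [ha, hc]; simp

/-- Structure facts about a group isomorphic to `Z/2^m × Z/2^m`. -/
theorem homocyclic_facts {P : Type*} [Group P] (m : ℕ) (hm : 1 ≤ m)
    (e : P ≃* Multiplicative (ZMod (2 ^ m) × ZMod (2 ^ m))) :
    (∀ x y : P, x * y = y * x) ∧ (∀ x : P, x ^ (2 ^ m) = 1) ∧
    ∃ t u : P, t ^ 2 = 1 ∧ u ^ 2 = 1 ∧ t ≠ 1 ∧ u ≠ 1 ∧ t ≠ u ∧
      ∀ x : P, x ^ 2 = 1 → x = 1 ∨ x = t ∨ x = u ∨ x = t * u := by
  have : NeZero (2 ^ m) := ⟨by positivity⟩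
  have hpow : 2 ^ m = 2 * 2 ^ (m - 1) := by
    rw [← pow_succ']; congr 1; omega
  have hq0 : ((2 ^ (m - 1) : ℕ) : ZMod (2 ^ m)) ≠ 0 := by
    rw [Ne, ZMod.natCast_eq_zero_iff]
    intro h
    have := Nat.le_of_dvd (by positivity) h
    have : 0 < 2 ^ (m - 1) := by positivity
    omega
  have h2q : (2 : ZMod (2 ^ m)) * ((2 ^ (m - 1) : ℕ) : ZMod (2 ^ m)) = 0 := by
    have : ((2 * 2 ^ (m - 1) : ℕ) : ZMod (2 ^ m)) = 0 := by
      rw [← hpow]; exact ZMod.natCast_self _
    push_cast at this ⊢
    exact this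
  refine ⟨?_, ?_, ?_⟩
  · intro x y
    apply e.injective
    rw [map_mul, map_mul, mul_comm]
  · intro x
    apply e.injective
    rw [map_pow, map_one]
    have : ∀ v : ZMod (2 ^ m) × ZMod (2 ^ m), (2 ^ m) • v = 0 := by
      intro v
      have h0 : ((2 : ZMod (2 ^ m)) ^ m) = 0 := by
        have : ((2 ^ m : ℕ) : ZMod (2 ^ m)) = 0 := ZMod.natCast_self _
        push_cast at this
        exact this
      ext
      · simp [h0]
      · simp [h0]
    have h2 := this (Multiplicative.toAdd (e x))
    exact congrArg Multiplicative.ofAdd h2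
  · refine ⟨e.symm (Multiplicative.ofAdd (((2 ^ (m - 1) : ℕ) : ZMod (2 ^ m)), 0)),
      e.symm (Multiplicative.ofAdd (0, ((2 ^ (m - 1) : ℕ) : ZMod (2 ^ m)))), ?_, ?_, ?_, ?_, ?_, ?_⟩
    · rw [← map_pow, ← ofAdd_nsmul, ← map_one e.symm]
      congr 1
      apply congrArg Multiplicative.ofAdd
      ext
      · simpa using h2q
      · simp
    · rw [← map_pow, ← ofAdd_nsmul, ← map_one e.symm]
      congr 1
      apply congrArg Multiplicative.ofAdd
      ext
      · simp
      · simpa using h2q
    · rw [Ne, map_eq_one_iff e.symm e.symm.injective]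
      intro h
      have := congrArg (fun v => (Multiplicative.toAdd v).1) h
      exact hq0 this
    · rw [Ne, map_eq_one_iff e.symm e.symm.injective]
      intro h
      have := congrArg (fun v => (Multiplicative.toAdd v).2) h
      exact hq0 this
    · intro h
      have h' := e.symm.injective h
      have := congrArg (fun v => (Multiplicative.toAdd v).1) h'
      exact hq0 this
    · intro x hx
      have hx' : (2 : ℕ) • Multiplicative.toAdd (e x) = 0 := by
        have := congrArg e hx
        rw [map_pow, map_one] at this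
        exact congrArg Multiplicative.toAdd this
      have h1 : 2 * (Multiplicative.toAdd (e x)).1 = 0 := by
        have := congrArg Prod.fst hx'
        simpa using this
      have h2 : 2 * (Multiplicative.toAdd (e x)).2 = 0 := by
        have := congrArg Prod.snd hx'
        simpa using this
      have hx2 : x = e.symm (Multiplicative.ofAdd ((Multiplicative.toAdd (e x)).1, (Multiplicative.toAdd (e x)).2)) := by
        simp
      rcases zmod_two_mul_eq_zero m hm _ h1 with ha | ha <;>
        rcases zmod_two_mul_eq_zero m hm _ h2 with hb | hb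
      · left
        rw [hx2, ha, hb]
        exact map_one e.symm
      · right; right; left
        rw [hx2, ha, hb]
      · right; left
        rw [hx2, ha, hb]
      · right; right; right
        rw [hx2, ha, hb, ← map_mul, ← ofAdd_add]
        simp

end Cfsg.Agent.H21
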