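import Cfsg.Agent.H21.Homocyclic

set_option autoImplicit false

namespace Cfsg.Agent.H21

open Subgroup

theorem mem_of_pow_mem_of_coprime {G : Type*} [Group G] (H : Subgroup G) (n : G) (a b : ℕ)
    (hab : Nat.Coprime a b) (ha : n ^ a ∈ H) (hb : n ^ b ∈ H) : n ∈ H := by
  have h1 : (n ^ a) ^ (Nat.gcdA a b) * (n ^ b) ^ (Nat.gcdB a b) ∈ H :=
    H.mul_mem (H.zpow_mem ha _) (H.zpow_mem hb _)
  have h2 : (n ^ a) ^ (Nat.gcdA a b) * (n ^ b) ^ (Nat.gcdB a b) = n := by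
    rw [← zpow_natCast n a, ← zpow_natCast n b, ← zpow_mul, ← zpow_mul, ← zpow_add,
      ← Nat.gcd_eq_gcd_ab, hab.gcd_eq_one]
    simp
  rwa [h2] at h1

/-- If `n` normalizes the abelian subgroup `P` and centralizes all its elements of order `≤ 2`,
then `n ^ (2 ^ j)` centralizes all elements of order dividing `2 ^ (j + 1)`. -/
theorem conj_pow_two_fix {G : Type*} [Group G] (P : Subgroup G)
    (hab : ∀ x ∈ P, ∀ y ∈ P, x * y = y * x)
    (n : G) (hn : n ∈ normalizer (P : Set G))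
    (h : ∀ x ∈ P, x ^ 2 = 1 → n * x * n⁻¹ = x) :
    ∀ j : ℕ, ∀ x ∈ P, x ^ (2 ^ (j + 1)) = 1 → n ^ (2 ^ j) * x * (n ^ (2 ^ j))⁻¹ = x := by
  intro j
  induction j with
  | zero =>
    intro x hx hx2
    simpa using h x hx (by simpa using hx2)
  | succ j ih =>
    intro x hx hx2
    obtain ⟨ν, hν⟩ : ∃ ν, ν = n ^ (2 ^ j) := ⟨_, rfl⟩
    rw [← hν] at ih
    have hνN : ν ∈ normalizer (P : Set G) := hν ▸ Subgroup.pow_mem _ hn _
    have hx2P : x * x ∈ P := P.mul_mem hx hx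
    have h1 : ν * (x * x) * ν⁻¹ = x * x := by
      apply ih _ hx2P
      rw [← pow_two, ← pow_mul, ← pow_succ']
      exact hx2
    obtain ⟨y, hy⟩ : ∃ y, y = ν * x * ν⁻¹ := ⟨_, rfl⟩
    have hyP : y ∈ P := hy ▸ (Subgroup.mem_normalizer_iff.1 hνN x).1 hx
    have hy2 : y * y = x * x := by
      rw [hy]
      calc ν * x * ν⁻¹ * (ν * x * ν⁻¹) = ν * (x * x) * ν⁻¹ := by group
        _ = x * x := h1
    obtain ⟨t', ht'⟩ : ∃ t', t' = y * x⁻¹ := ⟨_, rfl⟩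
    have ht'P : t' ∈ P := ht' ▸ P.mul_mem hyP (P.inv_mem hx)
    have hyx : y * x⁻¹ = x⁻¹ * y := hab y hyP x⁻¹ (P.inv_mem hx)
    have ht'2 : t' * t' = 1 := by
      rw [ht']
      calc y * x⁻¹ * (y * x⁻¹) = y * (x⁻¹ * y) * x⁻¹ := by group
        _ = y * (y * x⁻¹) * x⁻¹ := by rw [hyx]
        _ = (y * y) * x⁻¹ * x⁻¹ := by group
        _ = 1 := by rw [hy2]; group
    have h2 : ν * t' * ν⁻¹ = t' := by
      apply ih _ ht'P
      rw [pow_succ', pow_mul, pow_two, ht'2, one_pow]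
    have hνν : n ^ (2 ^ (j + 1)) = ν * ν := by
      rw [hν, ← pow_add, pow_succ]; congr 1; omega
    rw [hνν]
    calc ν * ν * x * (ν * ν)⁻¹ = ν * (ν * x * ν⁻¹) * ν⁻¹ := by group
      _ = ν * y * ν⁻¹ := by rw [← hy]
      _ = ν * (t' * x) * ν⁻¹ := by rw [ht']; group
      _ = (ν * t' * ν⁻¹) * (ν * x * ν⁻¹) := by group
      _ = t' * y := by rw [h2, ← hy]
      _ = y * x⁻¹ * y := by rw [ht']
      _ = x⁻¹ * y * y := by rw [hyx]
      _ = x⁻¹ * (y * y) := by group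
      _ = x := by rw [hy2]; group

/-- Data of a homocyclic Sylow 2-subgroup, in terms of elements of the ambient group. -/
theorem homocyclic_sylow_data {G : Type*} [Group G] (P : Subgroup G) (m : ℕ) (hm : 1 ≤ m)
    (e : P ≃* Multiplicative (ZMod (2 ^ m) × ZMod (2 ^ m))) :
    (∀ x ∈ P, ∀ y ∈ P, x * y = y * x) ∧ (∀ x ∈ P, x ^ (2 ^ m) = 1) ∧
    ∃ t u : G, t ∈ P ∧ u ∈ P ∧ t ^ 2 = 1 ∧ u ^ 2 = 1 ∧ t ≠ 1 ∧ u ≠ 1 ∧ t ≠ u ∧
      ∀ x ∈ P, x ^ 2 = 1 → x = 1 ∨ x = t ∨ x = u ∨ x = t * u := by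
  obtain ⟨h1, h2, t, u, ht, hu, ht1, hu1, htu, hall⟩ := homocyclic_facts m hm e
  refine ⟨?_, ?_, t, u, t.2, u.2, ?_, ?_, ?_, ?_, ?_, ?_⟩
  · intro x hx y hy
    exact congrArg Subtype.val (h1 ⟨x, hx⟩ ⟨y, hy⟩)
  · intro x hx
    exact congrArg Subtype.val (h2 ⟨x, hx⟩)
  · exact congrArg Subtype.val ht
  · exact congrArg Subtype.val hu
  · intro h; exact ht1 (Subtype.ext h)
  · intro h; exact hu1 (Subtype.ext h)
  · intro h; exact htu (Subtype.ext h)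
  · intro x hx hx2
    rcases hall ⟨x, hx⟩ (Subtype.ext hx2) with h | h | h | h
    · left; exact congrArg Subtype.val h
    · right; left; exact congrArg Subtype.val h
    · right; right; left; exact congrArg Subtype.val h
    · right; right; right; exact congrArg Subtype.val h

end Cfsg.Agent.H21
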