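import Cfsg.Agent.H21.Homocyclic2

set_option autoImplicit false

namespace Cfsg.Agent.H21

open Subgroup

theorem centralizer_subgroupOf_normalizer_normal {G : Type*} [Group G] (H : Subgroup G) :
    ((centralizer (H : Set G)).subgroupOf (normalizer (H : Set G))).Normal := by
  rw [← normalizerMonoidHom_ker]
  infer_instance

/-- `n ^ [N:C] ∈ C` for `n ∈ N = N_G(H)`, `C = C_G(H)`. -/
theorem pow_relIndex_mem_centralizer {G : Type*} [Group G] (H : Subgroup G) (n : G)
    (hn : n ∈ normalizer (H : Set G)) :
    n ^ ((centralizer (H : Set G)).relIndex (normalizer (H : Set G))) ∈ centralizer (H : Set G) := by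
  have := centralizer_subgroupOf_normalizer_normal H
  have h := Subgroup.pow_index_mem ((centralizer (H : Set G)).subgroupOf (normalizer (H : Set G)))
    (⟨n, hn⟩ : normalizer (H : Set G))
  rw [Subgroup.mem_subgroupOf] at h
  exact h

/-- For an abelian Sylow `p`-subgroup, `[N:C]` is prime to `p`. -/
theorem not_dvd_relIndex_centralizer_normalizer {G : Type*} [Group G] [Finite G] {p : ℕ}
    [Fact p.Prime] (P : Sylow p G) (hab : ∀ x ∈ (P : Subgroup G), ∀ y ∈ (P : Subgroup G), x * y = y * x) :
    ¬ p ∣ (centralizer ((P : Subgroup G) : Set G)).relIndex (normalizer ((P : Subgroup G) : Set G)) := by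
  intro h
  have hPC : (P : Subgroup G) ≤ centralizer ((P : Subgroup G) : Set G) := by
    intro x hx y hy
    exact hab y hy x hx
  have h1 := Subgroup.relIndex_dvd_of_le_left (normalizer ((P : Subgroup G) : Set G)) hPC
  have h2 := Subgroup.relIndex_dvd_index_of_le (H := (P : Subgroup G))
    (K := normalizer ((P : Subgroup G) : Set G)) le_normalizer
  exact P.not_dvd_index (h.trans (h1.trans h2))

/-- Theorem A: an element of the normalizer of a homocyclic Sylow 2-subgroup that centralizes
all its involutions centralizes it. -/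
theorem homocyclic_fix_involutions_mem_centralizer {G : Type*} [Group G] [Finite G] (P : Sylow 2 G)
    (m : ℕ) (hm : 1 ≤ m) (e : (P : Subgroup G) ≃* Multiplicative (ZMod (2 ^ m) × ZMod (2 ^ m)))
    (n : G) (hn : n ∈ normalizer ((P : Subgroup G) : Set G))
    (h : ∀ x ∈ (P : Subgroup G), x ^ 2 = 1 → n * x * n⁻¹ = x) :
    n ∈ centralizer ((P : Subgroup G) : Set G) := by
  obtain ⟨hab, hexp, -⟩ := homocyclic_sylow_data (P : Subgroup G) m hm e
  have h1 : n ^ (2 ^ (m - 1)) ∈ centralizer ((P : Subgroup G) : Set G) := by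
    intro x hx
    have := conj_pow_two_fix (P : Subgroup G) hab n hn h (m - 1) x hx
      (by rw [Nat.sub_add_cancel hm]; exact hexp x hx)
    calc x * n ^ (2 ^ (m - 1)) = (n ^ (2 ^ (m - 1)) * x * (n ^ (2 ^ (m - 1)))⁻¹) * n ^ (2 ^ (m - 1)) := by
          rw [this]
      _ = n ^ (2 ^ (m - 1)) * x := by group
  have h2 := pow_relIndex_mem_centralizer (P : Subgroup G) n hn
  have hodd := not_dvd_relIndex_centralizer_normalizer P hab
  refine mem_of_pow_mem_of_coprime _ n _ _ ?_ h1 h2
  apply Nat.Coprime.pow_left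
  exact (Nat.Prime.coprime_iff_not_dvd Nat.prime_two).2 hodd

/-- Theorem B: `[N:C]` is `1` or `3` for a homocyclic Sylow 2-subgroup. -/
theorem homocyclic_relIndex {G : Type*} [Group G] [Finite G] (P : Sylow 2 G)
    (m : ℕ) (hm : 1 ≤ m) (e : (P : Subgroup G) ≃* Multiplicative (ZMod (2 ^ m) × ZMod (2 ^ m))) :
    (centralizer ((P : Subgroup G) : Set G)).relIndex (normalizer ((P : Subgroup G) : Set G)) = 1 ∨
    (centralizer ((P : Subgroup G) : Set G)).relIndex (normalizer ((P : Subgroup G) : Set G)) = 3 := by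
  classical
  obtain ⟨hab, hexp, t, u, htP, huP, ht2, hu2, ht1, hu1, htu, hall⟩ :=
    homocyclic_sylow_data (P : Subgroup G) m hm e
  set N := normalizer ((P : Subgroup G) : Set G) with hN
  set C := centralizer ((P : Subgroup G) : Set G) with hC
  let Ω := {x : G // x ∈ (P : Subgroup G) ∧ x ^ 2 = 1}
  let act : MulAction N Ω :=
    { smul := fun n x => ⟨(n : G) * x.1 * (n : G)⁻¹,
        (Subgroup.mem_normalizer_iff.1 n.2 x.1).1 x.2.1, by rw [conj_pow, x.2.2]; group⟩
      one_smul := fun x => by
        apply Subtype.ext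
        simp [HSMul.hSMul]
      mul_smul := fun a b x => by
        apply Subtype.ext
        simp [HSMul.hSMul, mul_assoc] }
  let ψ : N →* Equiv.Perm Ω := MulAction.toPermHom N Ω
  have hker : ψ.ker = C.subgroupOf N := by
    ext n
    rw [MonoidHom.mem_ker, Subgroup.mem_subgroupOf]
    constructor
    · intro h
      apply homocyclic_fix_involutions_mem_centralizer P m hm e n n.2
      intro x hx hx2
      have := congrArg (fun σ : Equiv.Perm Ω => (σ ⟨x, hx, hx2⟩).1) h
      exact this
    · intro h
      ext x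
      show (n : G) * x.1 * (n : G)⁻¹ = x.1
      have := h x.1 x.2.1
      rw [← this]; group
  have hidx : C.relIndex N ∣ (Nat.card Ω).factorial := by
    rw [← Nat.card_perm]
    have h1 := Subgroup.index_ker ψ
    rw [hker] at h1
    show (C.subgroupOf N).index ∣ _
    rw [h1]; exact Subgroup.card_subgroup_dvd_card _
  have hΩ : Nat.card Ω ≤ 4 := by
    have h1 : Nat.card Ω = Set.ncard {x : G | x ∈ (P : Subgroup G) ∧ x ^ 2 = 1} := Nat.card_coe_set_eq _
    rw [h1]
    have h2 : {x : G | x ∈ (P : Subgroup G) ∧ x ^ 2 = 1} ⊆ (({1, t, u, t * u} : Finset G) : Set G) := by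
      rintro x ⟨hx, hx2⟩
      rcases hall x hx hx2 with h | h | h | h <;> simp [h]
    have h3 := Set.ncard_le_ncard h2 (Finset.finite_toSet _)
    rw [Set.ncard_coe_finset] at h3
    exact h3.trans Finset.card_le_four
  have h24 : C.relIndex N ∣ 24 := hidx.trans (Nat.factorial_dvd_factorial hΩ)
  have hodd : ¬ 2 ∣ C.relIndex N := not_dvd_relIndex_centralizer_normalizer P hab
  have hle : C.relIndex N ≤ 24 := Nat.le_of_dvd (by norm_num) h24
  generalize C.relIndex N = r at *
  interval_cases r <;> omega

end Cfsg.Agent.H21
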