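import Cfsg.Agent.H21.Homocyclic3

set_option autoImplicit false

namespace Cfsg.Agent.H21

open Subgroup

/-- Theorem C: if `n` in the normalizer of a homocyclic Sylow 2-subgroup `P` centralizes an
involution of `P`, then `n * n` centralizes `P`. -/
theorem homocyclic_sq_mem_centralizer {G : Type*} [Group G] [Finite G] (P : Sylow 2 G)
    (m : ℕ) (hm : 1 ≤ m) (e : (P : Subgroup G) ≃* Multiplicative (ZMod (2 ^ m) × ZMod (2 ^ m)))
    (n : G) (hn : n ∈ normalizer ((P : Subgroup G) : Set G))
    (τ : G) (hτP : τ ∈ (P : Subgroup G)) (hτ2 : τ ^ 2 = 1) (hτ1 : τ ≠ 1) (hτ : n * τ * n⁻¹ = τ) :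
    n * n ∈ centralizer ((P : Subgroup G) : Set G) := by
  obtain ⟨hab, hexp, t, u, htP, huP, ht2, hu2, ht1, hu1, htu, hall⟩ :=
    homocyclic_sylow_data (P : Subgroup G) m hm e
  have ht2' : t * t = 1 := by rw [← pow_two]; exact ht2
  have hu2' : u * u = 1 := by rw [← pow_two]; exact hu2
  have hcomm : t * u = u * t := hab t htP u huP
  -- φ x = n * x * n⁻¹
  have F1 : ∀ x y : G, n * (x * y) * n⁻¹ = (n * x * n⁻¹) * (n * y * n⁻¹) := by intro x y; group
  have F2 : ∀ x ∈ (P : Subgroup G), n * x * n⁻¹ ∈ (P : Subgroup G) :=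
    fun x hx => (Subgroup.mem_normalizer_iff.1 hn x).1 hx
  have F3 : ∀ x : G, x ^ 2 = 1 → (n * x * n⁻¹) ^ 2 = 1 := by
    intro x hx; rw [conj_pow, hx]; group
  have F4 : ∀ x y : G, n * x * n⁻¹ = n * y * n⁻¹ → x = y := by
    intro x y h
    exact mul_left_cancel (mul_right_cancel h)
  have F5 : n * 1 * n⁻¹ = 1 := by group
  -- it suffices that φ∘φ fixes t and u
  have key : n * (n * t * n⁻¹) * n⁻¹ = t ∧ n * (n * u * n⁻¹) * n⁻¹ = u := by
    have hφt := hall _ (F2 t htP) (F3 t ht2)
    have hφu := hall _ (F2 u huP) (F3 u hu2)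
    rcases hall τ hτP hτ2 with h | h | h | h
    · exact absurd h hτ1
    · -- τ = t
      rw [h] at hτ
      refine ⟨by rw [hτ, hτ], ?_⟩
      rcases hφu with h' | h' | h' | h'
      · exact absurd (F4 u 1 (by rw [h', F5])) hu1
      · exact absurd (F4 t u (by rw [hτ, h'])) htu
      · rw [h', h']
      · rw [h', F1, hτ, h']
        calc t * (t * u) = (t * t) * u := by group
          _ = u := by rw [ht2', one_mul]
    · -- τ = u
      rw [h] at hτ
      refine ⟨?_, by rw [hτ, hτ]⟩
      rcases hφt with h' | h' | h' | h'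
      · exact absurd (F4 t 1 (by rw [h', F5])) ht1
      · rw [h', h']
      · exact absurd (F4 t u (by rw [hτ, h'])) htu
      · rw [h', F1, hτ, h']
        calc t * u * u = t * (u * u) := by group
          _ = t := by rw [hu2', mul_one]
    · -- τ = t * u
      rw [h] at hτ
      have hprod : (n * t * n⁻¹) * (n * u * n⁻¹) = t * u := by rw [← F1, hτ]
      rcases hφt with h' | h' | h' | h'
      · exact absurd (F4 t 1 (by rw [h', F5])) ht1
      · have hu' : n * u * n⁻¹ = u := by
          rw [h'] at hprod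
          exact mul_left_cancel hprod
        exact ⟨by rw [h', h'], by rw [hu', hu']⟩
      · have hu' : n * u * n⁻¹ = t := by
          rw [h', hcomm] at hprod
          exact mul_left_cancel hprod
        exact ⟨by rw [h', hu'], by rw [hu', h']⟩
      · exfalso
        have := F4 t (t * u) (by rw [h', hτ])
        apply hu1
        have h3 : t * 1 = t * u := by rw [mul_one]; exact this
        exact (mul_left_cancel h3).symm
  apply homocyclic_fix_involutions_mem_centralizer P m hm e (n * n) (Subgroup.mul_mem _ hn hn)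
  intro x hx hx2
  have hnn : ∀ y : G, n * n * y * (n * n)⁻¹ = n * (n * y * n⁻¹) * n⁻¹ := by intro y; group
  rw [hnn]
  rcases hall x hx hx2 with h | h | h | h
  · rw [h, F5, F5]
  · rw [h]; exact key.1
  · rw [h]; exact key.2
  · rw [h]
    calc n * (n * (t * u) * n⁻¹) * n⁻¹
        = (n * (n * t * n⁻¹) * n⁻¹) * (n * (n * u * n⁻¹) * n⁻¹) := by group
      _ = t * u := by rw [key.1, key.2]

/-- If `[N:C] = 3`, an element of `N` centralizing a nontrivial element of `P` centralizes `P`. -/
theorem homocyclic_centralizer_inf_normalizer {G : Type*} [Group G] [Finite G] (P : Sylow 2 G)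
    (m : ℕ) (hm : 1 ≤ m) (e : (P : Subgroup G) ≃* Multiplicative (ZMod (2 ^ m) × ZMod (2 ^ m)))
    (h3 : (centralizer ((P : Subgroup G) : Set G)).relIndex (normalizer ((P : Subgroup G) : Set G)) = 3)
    (n : G) (hn : n ∈ normalizer ((P : Subgroup G) : Set G))
    (z : G) (hzP : z ∈ (P : Subgroup G)) (hz1 : z ≠ 1) (hz : n * z = z * n) :
    n ∈ centralizer ((P : Subgroup G) : Set G) := by
  obtain ⟨hab, hexp, -⟩ := homocyclic_sylow_data (P : Subgroup G) m hm e
  -- find an involution in ⟨z⟩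
  have hex : ∃ k : ℕ, z ^ (2 ^ k) = 1 := ⟨m, hexp z hzP⟩
  classical
  set k := Nat.find hex with hk
  have hk1 : z ^ (2 ^ k) = 1 := Nat.find_spec hex
  have hk0 : k ≠ 0 := by
    intro h0
    rw [h0] at hk1
    exact hz1 (by simpa using hk1)
  have hkmin : z ^ (2 ^ (k - 1)) ≠ 1 := Nat.find_min hex (by omega)
  have hτ2 : (z ^ (2 ^ (k - 1))) ^ 2 = 1 := by
    rw [← pow_mul, ← pow_succ]
    have : k - 1 + 1 = k := by omega
    rw [this]; exact hk1
  have hcomm : Commute n (z ^ (2 ^ (k - 1))) := (show Commute n z from hz).pow_right _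
  have hτ : n * (z ^ (2 ^ (k - 1))) * n⁻¹ = z ^ (2 ^ (k - 1)) := by
    rw [hcomm.eq]; group
  have h2 := homocyclic_sq_mem_centralizer P m hm e n hn _ (Subgroup.pow_mem _ hzP _) hτ2 hkmin hτ
  have h3' := pow_relIndex_mem_centralizer (P : Subgroup G) n hn
  rw [h3] at h3'
  rw [← pow_two] at h2
  exact mem_of_pow_mem_of_coprime _ n 2 3 (by norm_num) h2 h3'

end Cfsg.Agent.H21
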