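import Mathlib

set_option autoImplicit false

namespace Cfsg.Agent.H21

open scoped Pointwise

/-- Lucas: `p ∤ C(k + p^j - 1, k)` when `p^j ∣ k`. -/
theorem not_dvd_choose_add_pow_sub_one {p : ℕ} (hp : p.Prime) (j : ℕ) :
    ∀ k : ℕ, p ^ j ∣ k → ¬ p ∣ Nat.choose (k + p ^ j - 1) k := by
  induction j with
  | zero =>
    intro k _
    rw [pow_zero, Nat.add_sub_cancel, Nat.choose_self]
    exact hp.one_lt.ne' ∘ Nat.dvd_one.1
  | succ j ih =>
    intro k hk
    have : Fact p.Prime := ⟨hp⟩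
    obtain ⟨k', rfl⟩ : p ∣ k := Dvd.dvd.trans (dvd_pow_self p (Nat.succ_ne_zero j)) hk
    have hk' : p ^ j ∣ k' := by
      rw [pow_succ, mul_comm] at hk
      exact Nat.dvd_of_mul_dvd_mul_left hp.pos hk
    have hpj : 1 ≤ p ^ j := Nat.one_le_pow _ _ hp.pos
    obtain ⟨m, hm⟩ : ∃ m, k' + p ^ j = m + 1 := ⟨k' + p ^ j - 1, by omega⟩
    obtain ⟨r, hr⟩ : ∃ r, p = r + 1 := ⟨p - 1, by have := hp.pos; omega⟩
    have hn : p * k' + p ^ (j + 1) - 1 = p * m + r := by
      have h1 : p * k' + p ^ (j + 1) = p * (m + 1) := by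
        rw [← hm, pow_succ]; ring
      rw [h1, Nat.mul_succ]
      omega
    have hm' : k' + p ^ j - 1 = m := by omega
    have hlt : r < p := by omega
    have h1 := Choose.choose_modEq_choose_mod_mul_choose_div_nat
      (n := p * m + r) (k := p * k') (p := p)
    rw [Nat.mul_add_mod, Nat.mod_eq_of_lt hlt, Nat.mul_mod_right, Nat.choose_zero_right, one_mul,
      Nat.mul_add_div hp.pos, Nat.div_eq_of_lt hlt, add_zero,
      Nat.mul_div_cancel_left _ hp.pos] at h1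
    rw [hn]
    intro hdvd
    apply ih k' hk'
    rw [hm']
    exact (Nat.modEq_zero_iff_dvd.1 (h1.symm.trans (Nat.modEq_zero_iff_dvd.2 hdvd)))


/-- The number of `k`-subsets of `S` containing a given `(k-1)`-subset. -/
theorem card_supersets_in {α : Type*} [DecidableEq α] (S Γ : Finset α) (hΓ : Γ ⊆ S) (k : ℕ)
    (hk : Γ.card + 1 = k) :
    ((S.powersetCard k).filter (fun Δ => Γ ⊆ Δ)).card = S.card - Γ.card := by
  rw [← Finset.card_sdiff_of_subset hΓ]
  symm
  apply Finset.card_bij (fun a _ => insert a Γ)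
  · intro a ha
    rw [Finset.mem_sdiff] at ha
    rw [Finset.mem_filter, Finset.mem_powersetCard]
    refine ⟨⟨Finset.insert_subset ha.1 hΓ, ?_⟩, Finset.subset_insert _ _⟩
    rw [Finset.card_insert_of_notMem ha.2, hk]
  · intro a ha b hb h
    rw [Finset.mem_sdiff] at ha hb
    have h1 : a ∈ insert b Γ := by rw [← h]; exact Finset.mem_insert_self _ _
    rcases Finset.mem_insert.1 h1 with h2 | h2
    · exact h2
    · exact absurd h2 ha.2
  · intro Δ hΔ
    rw [Finset.mem_filter, Finset.mem_powersetCard] at hΔ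
    obtain ⟨⟨hΔS, hΔc⟩, hΓΔ⟩ := hΔ
    have h1 : (Δ \ Γ).card = 1 := by
      rw [Finset.card_sdiff_of_subset hΓΔ]; omega
    obtain ⟨a, ha⟩ := Finset.card_eq_one.1 h1
    have ha' : a ∈ Δ \ Γ := by rw [ha]; exact Finset.mem_singleton_self a
    rw [Finset.mem_sdiff] at ha'
    refine ⟨a, Finset.mem_sdiff.2 ⟨hΔS ha'.1, ha'.2⟩, ?_⟩
    have h2 : Δ = (Δ \ Γ) ∪ Γ := (Finset.sdiff_union_of_subset hΓΔ).symm
    rw [h2, ha, Finset.insert_eq]

/-- **Wielandt**: a `k`-homogeneous group of degree `n` with `k + q - 1 ≤ n` for every prime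
power `q` dividing `k` is `(k-1)`-homogeneous. -/
theorem homogeneous_pred {α : Type*} [Fintype α] [DecidableEq α]
    (G : Subgroup (Equiv.Perm α)) {k : ℕ} (hk : 2 ≤ k)
    (hG : MulAction.IsPretransitive G (Set.powersetCard α k))
    (hq : ∀ q : ℕ, IsPrimePow q → q ∣ k → k + q - 1 ≤ Fintype.card α) :
    MulAction.IsPretransitive G (Set.powersetCard α (k - 1)) := by
  classical
  refine ⟨fun Γ₁ Γ₂ => ?_⟩
  obtain ⟨Γ₁, hΓ₁⟩ := Γ₁
  obtain ⟨Γ₂, hΓ₂⟩ := Γ₂
  have hΓ₁c : Γ₁.card = k - 1 := hΓ₁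
  have hΓ₂c : Γ₂.card = k - 1 := hΓ₂
  -- the orbit of `Γ₁`
  let O : Finset α → Prop := fun Γ => ∃ g : G, (g : Equiv.Perm α) • Γ₁ = Γ
  let c : Finset α → ℕ := fun Δ => ((Δ.powersetCard (k - 1)).filter O).card
  have hOinv : ∀ (g : G) (Γ : Finset α), O Γ → O ((g : Equiv.Perm α) • Γ) := by
    rintro g Γ ⟨h, rfl⟩
    exact ⟨g * h, by rw [Subgroup.coe_mul, mul_smul]⟩
  have hcinv : ∀ (g : G) (Δ : Finset α), c ((g : Equiv.Perm α) • Δ) = c Δ := by
    intro g Δ
    symm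
    apply Finset.card_bij (fun Γ _ => (g : Equiv.Perm α) • Γ)
    · intro Γ hΓ
      rw [Finset.mem_filter, Finset.mem_powersetCard] at hΓ ⊢
      exact ⟨⟨Finset.smul_finset_subset_smul_finset hΓ.1.1, by
        rw [Finset.card_smul_finset]; exact hΓ.1.2⟩, hOinv g Γ hΓ.2⟩
    · intro Γ _ Γ' _ h
      exact smul_left_cancel (g : Equiv.Perm α) h
    · intro Γ' hΓ'
      rw [Finset.mem_filter, Finset.mem_powersetCard] at hΓ'
      refine ⟨(g : Equiv.Perm α)⁻¹ • Γ', ?_, by rw [smul_inv_smul]⟩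
      rw [Finset.mem_filter, Finset.mem_powersetCard]
      refine ⟨⟨?_, by rw [Finset.card_smul_finset]; exact hΓ'.1.2⟩, ?_⟩
      · have := Finset.smul_finset_subset_smul_finset (a := (g : Equiv.Perm α)⁻¹) hΓ'.1.1
        rwa [inv_smul_smul] at this
      · have := hOinv g⁻¹ Γ' hΓ'.2
        rwa [Subgroup.coe_inv] at this
  have hcconst : ∀ Δ Δ' : Finset α, Δ.card = k → Δ'.card = k → c Δ = c Δ' := by
    intro Δ Δ' h h'
    obtain ⟨g, hg⟩ := hG.exists_smul_eq (⟨Δ, h⟩ : Set.powersetCard α k) ⟨Δ', h'⟩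
    have h1 : (g : Equiv.Perm α) • Δ = Δ' := by
      have := congrArg Subtype.val hg
      rw [Subgroup.smul_def, Set.powersetCard.coe_smul] at this
      exact this
    rw [← h1, hcinv]
  -- the degree is at least `k + 1`
  have hn : k + 1 ≤ Fintype.card α := by
    obtain ⟨p, hp, hpk⟩ := Nat.exists_prime_and_dvd (show k ≠ 1 by omega)
    have h1 := hq p hp.isPrimePow hpk
    have h2 := hp.two_le
    omega
  -- every `(k-1)`-set lies in a `k`-set
  have hext : ∀ Γ : Finset α, Γ.card = k - 1 → ∃ Δ : Finset α, Δ.card = k ∧ Γ ⊆ Δ := by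
    intro Γ hΓ
    have hlt : Γ.card < (Finset.univ : Finset α).card := by
      rw [Finset.card_univ, hΓ]; omega
    obtain ⟨a, -, ha⟩ := Finset.exists_mem_notMem_of_card_lt_card hlt
    refine ⟨insert a Γ, ?_, Finset.subset_insert _ _⟩
    rw [Finset.card_insert_of_notMem ha, hΓ]; omega
  obtain ⟨Δ₀, hΔ₀c, hΔ₀⟩ := hext Γ₁ hΓ₁c
  have hc1 : 1 ≤ c Δ₀ := by
    apply Finset.card_pos.2
    refine ⟨Γ₁, ?_⟩
    rw [Finset.mem_filter, Finset.mem_powersetCard]
    exact ⟨⟨hΔ₀, hΓ₁c⟩, 1, by rw [Subgroup.coe_one, one_smul]⟩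
  have hck : c Δ₀ ≤ k := by
    have h1 : c Δ₀ ≤ (Δ₀.powersetCard (k - 1)).card := Finset.card_filter_le _ _
    rw [Finset.card_powersetCard, hΔ₀c] at h1
    have h2 : k.choose (k - 1) = k := by
      obtain ⟨m, rfl⟩ : ∃ m, k = m + 1 := ⟨k - 1, by omega⟩
      rw [Nat.add_sub_cancel, Nat.choose_succ_self_right]
    rwa [h2] at h1
  -- divisibility by prime powers
  have hdiv : ∀ p j : ℕ, p.Prime → p ^ j ∣ k → p ^ j ∣ c Δ₀ := by
    intro p j hp hpj
    rcases Nat.eq_zero_or_pos j with rfl | hj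
    · simp
    have hpp : IsPrimePow (p ^ j) := hp.isPrimePow.pow hj.ne'
    have hle := hq _ hpp hpj
    obtain ⟨S, -, hS⟩ := Finset.exists_subset_card_eq (s := (Finset.univ : Finset α))
      (n := k + p ^ j - 1) (by rw [Finset.card_univ]; exact hle)
    have hdc := Finset.sum_card_bipartiteAbove_eq_sum_card_bipartiteBelow
      (s := S.powersetCard k) (t := (S.powersetCard (k - 1)).filter O)
      (r := fun Δ Γ => Γ ⊆ Δ)
    have hL : ∀ Δ ∈ S.powersetCard k,
        (Finset.bipartiteAbove (fun Δ Γ => Γ ⊆ Δ) ((S.powersetCard (k - 1)).filter O) Δ).card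
          = c Δ₀ := by
      intro Δ hΔ
      rw [Finset.mem_powersetCard] at hΔ
      rw [← hcconst Δ Δ₀ hΔ.2 hΔ₀c]
      show _ = ((Δ.powersetCard (k - 1)).filter O).card
      congr 1
      ext Γ
      simp only [Finset.bipartiteAbove, Finset.mem_filter, Finset.mem_powersetCard]
      constructor
      · rintro ⟨⟨⟨-, h2⟩, h3⟩, h4⟩
        exact ⟨⟨h4, h2⟩, h3⟩
      · rintro ⟨⟨h1, h2⟩, h3⟩
        exact ⟨⟨⟨h1.trans hΔ.1, h2⟩, h3⟩, h1⟩
    have hR : ∀ Γ ∈ (S.powersetCard (k - 1)).filter O,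
        (Finset.bipartiteBelow (fun Δ Γ => Γ ⊆ Δ) (S.powersetCard k) Γ).card = p ^ j := by
      intro Γ hΓ
      rw [Finset.mem_filter, Finset.mem_powersetCard] at hΓ
      have h1 := card_supersets_in S Γ hΓ.1.1 k (by rw [hΓ.1.2]; omega)
      have h2 : Finset.bipartiteBelow (fun Δ Γ => Γ ⊆ Δ) (S.powersetCard k) Γ =
          (S.powersetCard k).filter (fun Δ => Γ ⊆ Δ) := rfl
      rw [h2, h1, hS, hΓ.1.2]
      have := Nat.one_le_pow j p hp.pos
      omega
    rw [Finset.sum_congr rfl hL, Finset.sum_congr rfl hR, Finset.sum_const, Finset.sum_const,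
      Finset.card_powersetCard, hS, smul_eq_mul, smul_eq_mul] at hdc
    have hcop : Nat.Coprime (p ^ j) ((k + p ^ j - 1).choose k) :=
      Nat.Coprime.pow_left j ((Nat.Prime.coprime_iff_not_dvd hp).2
        (not_dvd_choose_add_pow_sub_one hp j k hpj))
    exact hcop.dvd_of_dvd_mul_left (Dvd.intro_left _ hdc.symm)
  have hkc : k ∣ c Δ₀ := (Nat.dvd_iff_prime_pow_dvd_dvd _ _).2 hdiv
  have hceq : c Δ₀ = k := by
    obtain ⟨m, hm⟩ := hkc
    have hm1 : m = 1 := by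
      rcases Nat.lt_or_ge m 1 with h | h
      · have : m = 0 := by omega
        rw [this, mul_zero] at hm; omega
      · by_contra hne
        have h2 : 2 ≤ m := by omega
        have : k * 2 ≤ k * m := Nat.mul_le_mul_left k h2
        omega
    rw [hm, hm1, mul_one]
  -- conclusion
  obtain ⟨Δ, hΔc, hΔ⟩ := hext Γ₂ hΓ₂c
  have h1 : c Δ = k := by rw [hcconst Δ Δ₀ hΔc hΔ₀c, hceq]
  have h2 : ((Δ.powersetCard (k - 1)).filter O).card = (Δ.powersetCard (k - 1)).card := by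
    rw [Finset.card_powersetCard, hΔc]
    have h3 : k.choose (k - 1) = k := by
      obtain ⟨m, rfl⟩ : ∃ m, k = m + 1 := ⟨k - 1, by omega⟩
      rw [Nat.add_sub_cancel, Nat.choose_succ_self_right]
    rw [h3]; exact h1
  have h3 := (Finset.card_filter_eq_iff.1 h2) Γ₂ (Finset.mem_powersetCard.2 ⟨hΔ, hΓ₂c⟩)
  obtain ⟨g, hg⟩ := h3
  refine ⟨g, Subtype.ext ?_⟩
  rw [Subgroup.smul_def, Set.powersetCard.coe_smul]
  exact hg

end Cfsg.Agent.H21
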