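import Mathlib

set_option autoImplicit false

namespace Cfsg.Agent.H21

/-- In a finite `p`-group, normalizers grow: a proper subgroup `D` of a `p`-subgroup `P` is
properly contained in its normalizer in `P`. -/
theorem exists_normalizer_not_mem {G : Type*} [Group G] [Finite G] {p : ℕ} [Fact p.Prime]
    {P D : Subgroup G} (hP : IsPGroup p P) (hDP : D < P) :
    ∃ x ∈ P, x ∈ Subgroup.normalizer (D : Set G) ∧ x ∉ D := by
  have : Group.IsNilpotent P := hP.isNilpotent
  have hnc := Group.normalizerCondition_of_isNilpotent (G := P)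
  have hlt : D.subgroupOf P < ⊤ := by
    rw [lt_top_iff_ne_top, Ne, Subgroup.subgroupOf_eq_top]
    exact not_le_of_gt hDP
  have h2 := hnc _ hlt
  obtain ⟨x, hx, hxD⟩ := SetLike.exists_of_lt h2
  refine ⟨x, x.2, ?_, fun h => hxD (Subgroup.mem_subgroupOf.2 h)⟩
  rw [← Subgroup.subgroupOf_normalizer_eq hDP.le] at hx
  exact Subgroup.mem_subgroupOf.1 hx

/-- Two distinct Sylow subgroups: the intersection is a proper subgroup of each. -/
theorem sylow_inf_lt_left {G : Type*} [Group G] {p : ℕ} {P Q : Sylow p G} (h : P ≠ Q) :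
    (P : Subgroup G) ⊓ Q < P := by
  refine lt_of_le_of_ne inf_le_left ?_
  intro heq
  have hle : (P : Subgroup G) ≤ Q := inf_eq_left.1 heq
  exact h (Sylow.ext (P.3 Q.2 hle).symm ▸ rfl)

end Cfsg.Agent.H21
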