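import Mathlib
import Cfsg.Agent.H21.Orbits
import Cfsg.Agent.H21.SylowInter

set_option autoImplicit false

namespace Cfsg.Agent.H21

open Subgroup

/-- `|H ⊓ K| * [K : H ⊓ K] = |K|`. -/
theorem card_inf_mul_relIndex {G : Type*} [Group G] (H K : Subgroup G) :
    Nat.card (H ⊓ K : Subgroup G) * H.relIndex K = Nat.card K := by
  have := Subgroup.card_mul_index (H.subgroupOf K)
  rw [← this]
  congr 1
  rw [← Subgroup.inf_subgroupOf_right]
  exact (Nat.card_congr (Subgroup.subgroupOfEquivOfLe inf_le_right).toEquiv).symm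

/-- The orbit of a Sylow subgroup `Q` under conjugation by a Sylow subgroup `P` has size
`[P : P ∩ Q]`. -/
theorem card_orbit_sylow {G : Type*} [Group G] [Finite G] {p : ℕ} [Fact p.Prime]
    (P Q : Sylow p G) :
    Nat.card (MulAction.orbit (P : Subgroup G) Q) = (Q : Subgroup G).relIndex P := by
  have hstab : MulAction.stabilizer (P : Subgroup G) Q =
      (normalizer ((Q : Subgroup G) : Set G)).subgroupOf P := by
    ext g
    rw [MulAction.mem_stabilizer_iff, Subgroup.mem_subgroupOf]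
    show (g : G) • Q = Q ↔ _
    exact Sylow.smul_eq_iff_mem_normalizer
  rw [Nat.card_coe_set_eq, ← MulAction.index_stabilizer, hstab]
  show (normalizer ((Q : Subgroup G) : Set G)).relIndex P = _
  have h1 := P.2.inf_normalizer_sylow Q
  rw [← Subgroup.inf_relIndex_right, inf_comm]
  have h2 : (P : Subgroup G) ⊓ normalizer ((Q : Subgroup G) : Set G) = (P : Subgroup G) ⊓ Q := h1
  rw [h2, inf_comm, Subgroup.inf_relIndex_right]

/-- If `n_p ≢ 1 [MOD n]` then some Sylow `Q ≠ P` has `n ∤ [P : P ∩ Q]`. -/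
theorem exists_sylow_relIndex_not_dvd {G : Type*} [Group G] [Finite G] {p : ℕ} [Fact p.Prime]
    (P : Sylow p G) (n : ℕ) (h : ¬ Nat.card (Sylow p G) ≡ 1 [MOD n]) :
    ∃ Q : Sylow p G, Q ≠ P ∧ ¬ n ∣ (Q : Subgroup G).relIndex P := by
  by_contra hcon
  push Not at hcon
  apply h
  apply card_modEq_one_of_orbits (P := (P : Subgroup G)) n P
  · intro g
    exact (Sylow.smul_eq_iff_mem_normalizer).2 (le_normalizer g.2)
  · intro Q hQ
    rw [card_orbit_sylow]
    exact hcon Q hQ

/-- If `n_p ≢ 1 [MOD p^2]` then there is a Sylow `Q ≠ P` such that `P ∩ Q` has index `p` in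
both, hence is normalized by both. -/
theorem exists_sylow_inter_index_p {G : Type*} [Group G] [Finite G] {p : ℕ} [Fact p.Prime]
    (P : Sylow p G) (h : ¬ Nat.card (Sylow p G) ≡ 1 [MOD p ^ 2]) :
    ∃ Q : Sylow p G, Q ≠ P ∧
      Nat.card ((P : Subgroup G) ⊓ Q : Subgroup G) * p = Nat.card (P : Subgroup G) ∧
      (P : Subgroup G) ≤ normalizer (((P : Subgroup G) ⊓ Q : Subgroup G) : Set G) ∧
      (Q : Subgroup G) ≤ normalizer (((P : Subgroup G) ⊓ Q : Subgroup G) : Set G) := by
  have hp : p.Prime := Fact.out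
  obtain ⟨Q, hQ, hnd⟩ := exists_sylow_relIndex_not_dvd P (p ^ 2) h
  have hr1 : Nat.card ((P : Subgroup G) ⊓ Q : Subgroup G) * (Q : Subgroup G).relIndex P
      = Nat.card (P : Subgroup G) := by
    rw [inf_comm]; exact card_inf_mul_relIndex _ _
  obtain ⟨k, hk⟩ := P.2.exists_card_eq
  have hlt : (P : Subgroup G) ⊓ Q < P := sylow_inf_lt_left (Ne.symm hQ)
  have hrp : (Q : Subgroup G).relIndex P = p := by
    have hdvd : (Q : Subgroup G).relIndex P ∣ p ^ k := by
      rw [← hk, ← hr1]; exact dvd_mul_left _ _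
    obtain ⟨i, hi, hri⟩ := (Nat.dvd_prime_pow hp).1 hdvd
    have hi2 : i < 2 := by
      by_contra hge
      apply hnd
      rw [hri]
      exact pow_dvd_pow p (by omega)
    have hi0 : i ≠ 0 := by
      rintro rfl
      rw [hri, pow_zero, mul_one] at hr1
      exact absurd (Subgroup.eq_of_le_of_card_ge inf_le_left hr1.ge) hlt.ne
    have : i = 1 := by omega
    rw [hri, this, pow_one]
  rw [hrp] at hr1
  have hk0 : k ≠ 0 := by
    rintro rfl
    rw [pow_zero] at hk
    rw [hk] at hr1
    have := hp.two_le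
    have h2 : p ∣ 1 := ⟨_, by rw [mul_comm]; exact hr1.symm⟩
    exact hp.one_lt.ne' (Nat.dvd_one.1 h2)
  have hminP : (Nat.card (P : Subgroup G)).minFac = p := by
    rw [hk]; exact hp.pow_minFac hk0
  have hcardQ : Nat.card (Q : Subgroup G) = Nat.card (P : Subgroup G) := by
    rw [Sylow.card_eq_multiplicity, Sylow.card_eq_multiplicity]
  refine ⟨Q, hQ, hr1, ?_, ?_⟩
  · rw [← Subgroup.normal_subgroupOf_iff_le_normalizer inf_le_left]
    apply Subgroup.normal_of_index_eq_minFac_card
    rw [hminP]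
    show ((P : Subgroup G) ⊓ Q).relIndex P = p
    rw [inf_comm, Subgroup.inf_relIndex_right, hrp]
  · rw [← Subgroup.normal_subgroupOf_iff_le_normalizer inf_le_right]
    apply Subgroup.normal_of_index_eq_minFac_card
    rw [hcardQ, hminP]
    show ((P : Subgroup G) ⊓ Q).relIndex Q = p
    have h3 := card_inf_mul_relIndex (P : Subgroup G) (Q : Subgroup G)
    rw [hcardQ, ← hr1] at h3
    have hpos : 0 < Nat.card ((P : Subgroup G) ⊓ Q : Subgroup G) := Nat.card_pos
    rw [Subgroup.inf_relIndex_right]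
    exact Nat.eq_of_mul_eq_mul_left hpos h3

/-- If a subgroup `N` contains two distinct Sylow `p`-subgroups of `G`, then `n = n_p(N)`
satisfies `n ≡ 1 [MOD p]`, `n ≠ 1` and `n * |P| ∣ |N|`. -/
theorem exists_sylow_count_of_two_le {G : Type*} [Group G] [Finite G] {p : ℕ} [Fact p.Prime]
    (N : Subgroup G) (P Q : Sylow p G) (hne : P ≠ Q) (hP : (P : Subgroup G) ≤ N)
    (hQ : (Q : Subgroup G) ≤ N) :
    ∃ n, n % p = 1 ∧ n ≠ 1 ∧ n * Nat.card (P : Subgroup G) ∣ Nat.card N := by
  have hp : p.Prime := Fact.out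
  refine ⟨Nat.card (Sylow p N), ?_, ?_, ?_⟩
  · have h := card_sylow_modEq_one p N
    unfold Nat.ModEq at h
    rw [h, Nat.mod_eq_of_lt hp.one_lt]
  · intro h1
    have hsub : Subsingleton (Sylow p N) := (Nat.card_eq_one_iff_unique.1 h1).1
    have heq : P.subtype hP = Q.subtype hQ := Subsingleton.elim _ _
    have h2 : (P : Subgroup G).subgroupOf N = (Q : Subgroup G).subgroupOf N := by
      rw [← Sylow.coe_subtype P hP, ← Sylow.coe_subtype Q hQ, heq]
    apply hne
    apply Sylow.ext
    have h3 := congrArg (Subgroup.map N.subtype) h2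
    rwa [Subgroup.map_subgroupOf_eq_of_le hP, Subgroup.map_subgroupOf_eq_of_le hQ] at h3
  · have h1 := Sylow.card_dvd_index (P.subtype hP)
    have h2 := Subgroup.card_mul_index ((P.subtype hP : Sylow p N) : Subgroup N)
    rw [← h2, mul_comm]
    have h3 : Nat.card ((P.subtype hP : Sylow p N) : Subgroup N) = Nat.card (P : Subgroup G) := by
      rw [Sylow.coe_subtype]
      exact Nat.card_congr (Subgroup.subgroupOfEquivOfLe hP).toEquiv
    rw [h3]
    exact Nat.mul_dvd_mul_left _ h1

end Cfsg.Agent.H21
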