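import Mathlib
import Cfsg.Agent.H21.SylowInter2

set_option autoImplicit false

namespace Cfsg.Agent.H21

open Subgroup

open Pointwise in
/-- Membership in a conjugate Sylow subgroup. -/
theorem mem_smul_sylow_iff {G : Type*} [Group G] {p : ℕ} (S : Sylow p G) (g x : G) :
    x ∈ ((g • S : Sylow p G) : Subgroup G) ↔ g⁻¹ * x * g ∈ (S : Subgroup G) := by
  rw [Sylow.smul_def, Sylow.pointwise_smul_def, Subgroup.mem_pointwise_smul_iff_inv_smul_mem]
  simp [MulAut.smul_def]

/-- If `n_p ≤ p ^ 2`, two distinct Sylow `p`-subgroups meet in a subgroup of index `p`. -/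
theorem sylow_inf_card_mul_of_few {G : Type*} [Group G] [Finite G] {p : ℕ} [Fact p.Prime]
    (h : Nat.card (Sylow p G) ≤ p ^ 2) (P Q : Sylow p G) (hne : Q ≠ P) :
    Nat.card ((P : Subgroup G) ⊓ Q : Subgroup G) * p = Nat.card (P : Subgroup G) := by
  have hp : p.Prime := Fact.out
  have h1 := card_orbit_sylow P Q
  have hnot : P ∉ MulAction.orbit (P : Subgroup G) Q := by
    rintro ⟨g, hg⟩
    apply hne
    have hg' : (g : G) • Q = P := hg
    have h2 : (g : G) • P = P :=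
      Sylow.smul_eq_iff_mem_normalizer.2 (le_normalizer g.2)
    have h3 : (g : G) • Q = (g : G) • P := by rw [hg', h2]
    exact smul_left_cancel _ h3
  have hlt : Nat.card (MulAction.orbit (P : Subgroup G) Q) < Nat.card (Sylow p G) := by
    rw [Nat.card_coe_set_eq, ← Set.ncard_univ]
    apply Set.ncard_lt_ncard _ (Set.toFinite _)
    rw [Set.ssubset_univ_iff]
    intro heq
    exact hnot (heq ▸ Set.mem_univ P)
  rw [h1] at hlt
  have hdvd : (Q : Subgroup G).relIndex P ∣ Nat.card (P : Subgroup G) :=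
    Subgroup.relIndex_dvd_card _ _
  obtain ⟨e, he⟩ := IsPGroup.iff_card.1 P.2
  rw [he] at hdvd
  obtain ⟨j, hj, hj2⟩ := (Nat.dvd_prime_pow hp).1 hdvd
  have hj1 : j ≤ 1 := by
    by_contra hcon
    have h2 : p ^ 2 ≤ p ^ j := Nat.pow_le_pow_right hp.pos (by omega)
    rw [hj2] at hlt
    omega
  have hj0 : j ≠ 0 := by
    rintro rfl
    rw [pow_zero, Subgroup.relIndex_eq_one] at hj2
    apply hne
    exact Sylow.ext (P.3 Q.2 hj2)
  have hj' : j = 1 := by omega
  rw [hj', pow_one] at hj2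
  have h3 := card_inf_mul_relIndex (Q : Subgroup G) (P : Subgroup G)
  rw [hj2, inf_comm] at h3
  exact h3

/-- A subgroup of index `p` in a Sylow `p`-subgroup `S` is normalized by `S`. -/
theorem conj_mem_of_card_mul_eq {G : Type*} [Group G] [Finite G] {p : ℕ} [Fact p.Prime]
    (S : Sylow p G) (D : Subgroup G) (hD : D ≤ S)
    (hcard : Nat.card D * p = Nat.card (S : Subgroup G)) (u : G) (hu : u ∈ (S : Subgroup G))
    (d : G) (hd : d ∈ D) : u * d * u⁻¹ ∈ D := by
  have hp : p.Prime := Fact.out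
  have hidx : (D.subgroupOf (S : Subgroup G)).index = p := by
    have h1 := Subgroup.card_mul_index (D.subgroupOf (S : Subgroup G))
    have h2 : Nat.card (D.subgroupOf (S : Subgroup G)) = Nat.card D :=
      Nat.card_congr (Subgroup.subgroupOfEquivOfLe hD).toEquiv
    rw [h2, ← hcard] at h1
    have hD0 : 0 < Nat.card D := Nat.card_pos
    exact Nat.eq_of_mul_eq_mul_left hD0 h1
  obtain ⟨e, he⟩ := IsPGroup.iff_card.1 S.2
  have he0 : e ≠ 0 := by
    rintro rfl
    rw [pow_zero] at he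
    rw [he] at hcard
    have := hp.two_le
    have hD0 : 0 < Nat.card D := Nat.card_pos
    nlinarith
  have hnorm : (D.subgroupOf (S : Subgroup G)).Normal := by
    apply Subgroup.normal_of_index_eq_minFac_card
    rw [hidx, he, Nat.Prime.pow_minFac hp he0]
  have := hnorm.conj_mem ⟨d, hD hd⟩ (by rw [Subgroup.mem_subgroupOf]; exact hd) ⟨u, hu⟩
  rw [Subgroup.mem_subgroupOf] at this
  exact this

/-- The Sylow subgroups containing a subgroup `D` of index `p` in the Sylow subgroup `S₁`: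
if there are at least two of them, there are at least `p + 1`. -/
theorem card_sylow_ge_of_index_p {G : Type*} [Group G] [Finite G] {p : ℕ} [Fact p.Prime]
    (S₁ S₂ : Sylow p G) (hne : S₁ ≠ S₂) (D : Subgroup G) (hD1 : D ≤ S₁) (hD2 : D ≤ S₂)
    (hcard : Nat.card D * p = Nat.card (S₁ : Subgroup G)) :
    p + 1 ≤ Nat.card {S : Sylow p G // D ≤ S} := by
  have hp : p.Prime := Fact.out
  let X : SubMulAction (S₁ : Subgroup G) (Sylow p G) :=
    { carrier := {S : Sylow p G | D ≤ S}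
      smul_mem' := fun u S hS => by
        show D ≤ ((u : G) • S : Sylow p G)
        intro d hd
        have h1 : (u : G)⁻¹ * d * ((u : G)⁻¹)⁻¹ ∈ D :=
          conj_mem_of_card_mul_eq S₁ D hD1 hcard _ (inv_mem u.2) d hd
        have h2 : (u : G)⁻¹ * d * ((u : G)⁻¹)⁻¹ ∈ (S : Subgroup G) := hS h1
        rw [inv_inv] at h2
        exact (mem_smul_sylow_iff S (u : G) d).2 h2 }
  have h1 := S₁.2.card_modEq_card_fixedPoints X
  have h2 : Nat.card X = Nat.card {S : Sylow p G // D ≤ S} := rfl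
  have h3 : Nat.card (MulAction.fixedPoints (S₁ : Subgroup G) X) = 1 := by
    rw [Nat.card_eq_one_iff_unique]
    have hfix : ∀ a : X, a ∈ MulAction.fixedPoints (S₁ : Subgroup G) X → a.1 = S₁ := by
      intro a ha
      have ha' : a.1 ∈ MulAction.fixedPoints (S₁ : Subgroup G) (Sylow p G) := by
        intro u
        have := ha u
        exact congrArg Subtype.val this
      rw [S₁.2.sylow_mem_fixedPoints_iff] at ha'
      exact Sylow.ext (S₁.3 a.1.2 ha')
    constructor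
    · constructor
      rintro ⟨a, ha⟩ ⟨b, hb⟩
      apply Subtype.ext
      apply Subtype.ext
      rw [hfix a ha, hfix b hb]
    · refine ⟨⟨⟨S₁, hD1⟩, ?_⟩⟩
      intro u
      apply Subtype.ext
      show (u : G) • S₁ = S₁
      exact Sylow.smul_eq_iff_mem_normalizer.2 (le_normalizer u.2)
  rw [h2, h3] at h1
  have h4 : 2 ≤ Nat.card {S : Sylow p G // D ≤ S} := by
    have : Nontrivial {S : Sylow p G // D ≤ S} :=
      ⟨⟨⟨S₁, hD1⟩, ⟨S₂, hD2⟩, fun h => hne (congrArg Subtype.val h)⟩⟩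
    exact Finite.one_lt_card
  obtain ⟨n, hn⟩ : ∃ n, n = Nat.card {S : Sylow p G // D ≤ S} := ⟨_, rfl⟩
  rw [← hn] at h1 h4 ⊢
  have h5 : n % p = 1 := by
    have := h1
    unfold Nat.ModEq at this
    rw [this, Nat.mod_eq_of_lt hp.one_lt]
  by_contra hcon
  have h6 : n < p + 1 := by omega
  have h7 : n % p = n ∨ n = p := by
    rcases Nat.lt_or_ge n p with h | h
    · left; exact Nat.mod_eq_of_lt h
    · right; omega
  rcases h7 with h | h
  · omega
  · rw [h, Nat.mod_self] at h5; omega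

/-- **Few Sylow subgroups**: if `n_p ≤ p ^ 2` and no non-trivial subgroup lies in all Sylow
`p`-subgroups, then a non-trivial Sylow `p`-subgroup has order `p`. -/
theorem sylow_card_eq_prime_of_few {G : Type*} [Group G] [Finite G] {p : ℕ} [Fact p.Prime]
    (h : Nat.card (Sylow p G) ≤ p ^ 2)
    (hcore : ∀ D : Subgroup G, (∀ Q : Sylow p G, D ≤ Q) → D = ⊥)
    (P : Sylow p G) (hP : (P : Subgroup G) ≠ ⊥) : Nat.card (P : Subgroup G) = p := by
  classical
  have hp : p.Prime := Fact.out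
  obtain ⟨e, he⟩ := IsPGroup.iff_card.1 P.2
  have hcardS : ∀ S : Sylow p G, Nat.card (S : Subgroup G) = p ^ e := by
    intro S
    rw [← he, Sylow.card_eq_multiplicity, Sylow.card_eq_multiplicity]
  have he0 : e ≠ 0 := by
    rintro rfl
    rw [pow_zero] at he
    exact hP ((Subgroup.card_eq_one).1 he)
  by_contra hne
  have he2 : 2 ≤ e := by
    by_contra hcon
    have h1 : e = 1 := by omega
    rw [h1, pow_one] at he
    exact hne he
  have hpe : p * p ≤ p ^ e := by
    have h1 : p ^ 2 ≤ p ^ e := Nat.pow_le_pow_right hp.pos he2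
    rw [pow_two] at h1
    exact h1
  have hinf : ∀ S S' : Sylow p G, S ≠ S' →
      Nat.card ((S : Subgroup G) ⊓ S' : Subgroup G) * p = p ^ e := by
    intro S S' hSS'
    rw [← hcardS S]
    exact sylow_inf_card_mul_of_few h S S' (Ne.symm hSS')
  have hkey : ∀ (S S' : Sylow p G) (D : Subgroup G), S ≠ S' → D ≤ S → D ≤ S' →
      Nat.card D * p = p ^ e → D = (S : Subgroup G) ⊓ S' := by
    intro S S' D hSS' h1 h2 h3
    apply Subgroup.eq_of_le_of_card_ge (le_inf h1 h2)
    have h4 := hinf S S' hSS'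
    have h5 : Nat.card ((S : Subgroup G) ⊓ S' : Subgroup G) = Nat.card D :=
      Nat.eq_of_mul_eq_mul_right hp.pos (h4.trans h3.symm)
    omega
  obtain ⟨Q, hQ⟩ : ∃ Q : Sylow p G, Q ≠ P := by
    by_contra hcon
    push Not at hcon
    apply hP
    apply hcore
    intro Q
    rw [hcon Q]
  obtain ⟨D₁, hD₁⟩ : ∃ D : Subgroup G, D = (P : Subgroup G) ⊓ Q := ⟨_, rfl⟩
  have hD₁card : Nat.card D₁ * p = p ^ e := by rw [hD₁]; exact hinf P Q (Ne.symm hQ)
  have hD₁ne : D₁ ≠ ⊥ := by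
    intro hb
    rw [hb, Subgroup.card_bot, one_mul] at hD₁card
    have := hp.two_le
    nlinarith
  obtain ⟨R, hR⟩ : ∃ R : Sylow p G, ¬ D₁ ≤ R := by
    by_contra hcon
    push Not at hcon
    exact hD₁ne (hcore D₁ hcon)
  have hRQ : Q ≠ R := by
    rintro rfl
    exact hR (hD₁ ▸ inf_le_right)
  obtain ⟨D₃, hD₃⟩ : ∃ D : Subgroup G, D = (Q : Subgroup G) ⊓ R := ⟨_, rfl⟩
  have hD₃card : Nat.card D₃ * p = p ^ e := by rw [hD₃]; exact hinf Q R hRQ
  have hD₃Q : D₃ ≤ Q := hD₃ ▸ inf_le_left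
  have hD₃R : D₃ ≤ R := hD₃ ▸ inf_le_right
  have hD₃P : ¬ D₃ ≤ P := by
    intro hle
    have h1 : D₃ = (P : Subgroup G) ⊓ Q := hkey P Q D₃ (Ne.symm hQ) hle hD₃Q hD₃card
    apply hR
    rw [hD₁, ← h1]
    exact hD₃R
  have hB : p + 1 ≤ Nat.card {S : Sylow p G // D₃ ≤ S} :=
    card_sylow_ge_of_index_p Q R hRQ D₃ hD₃Q hD₃R (by rw [hD₃card, hcardS])
  have hBP : ∀ S : {S : Sylow p G // D₃ ≤ S}, P ≠ S.1 := by
    rintro ⟨S, hS⟩ rfl
    exact hD₃P hS
  have hY : ∀ S : {S : Sylow p G // D₃ ≤ S},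
      p ≤ Nat.card {T : Sylow p G // T ≠ P ∧ (P : Subgroup G) ⊓ S.1 ≤ T} := by
    intro S
    have h1 := card_sylow_ge_of_index_p P S.1 (hBP S) ((P : Subgroup G) ⊓ S.1) inf_le_left
      inf_le_right (by rw [hinf P S.1 (hBP S), hcardS])
    have h2 : ({T : Sylow p G | (P : Subgroup G) ⊓ S.1 ≤ T}).ncard ≤
        (insert P {T : Sylow p G | T ≠ P ∧ (P : Subgroup G) ⊓ S.1 ≤ T}).ncard := by
      apply Set.ncard_le_ncard _ (Set.toFinite _)
      intro T hT
      by_cases hTP : T = P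
      · exact Set.mem_insert_iff.2 (Or.inl hTP)
      · exact Set.mem_insert_iff.2 (Or.inr ⟨hTP, hT⟩)
    have h3 := Set.ncard_insert_le P {T : Sylow p G | T ≠ P ∧ (P : Subgroup G) ⊓ S.1 ≤ T}
    have h4 : Nat.card {T : Sylow p G // (P : Subgroup G) ⊓ S.1 ≤ T} =
        ({T : Sylow p G | (P : Subgroup G) ⊓ S.1 ≤ T}).ncard := Nat.card_coe_set_eq _
    have h5 : Nat.card {T : Sylow p G // T ≠ P ∧ (P : Subgroup G) ⊓ S.1 ≤ T} =
        ({T : Sylow p G | T ≠ P ∧ (P : Subgroup G) ⊓ S.1 ≤ T}).ncard := Nat.card_coe_set_eq _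
    omega
  let f : (Σ S : {S : Sylow p G // D₃ ≤ S},
      {T : Sylow p G // T ≠ P ∧ (P : Subgroup G) ⊓ S.1 ≤ T}) → {T : Sylow p G // T ≠ P} :=
    fun x => ⟨x.2.1, x.2.2.1⟩
  have hf : Function.Injective f := by
    rintro ⟨S, T, hT1, hT2⟩ ⟨S', T', hT1', hT2'⟩ hxy
    have hTT : T = T' := congrArg Subtype.val hxy
    subst hTT
    have e1 : (P : Subgroup G) ⊓ S.1 = (P : Subgroup G) ⊓ T :=
      hkey P T _ (Ne.symm hT1) inf_le_left hT2 (hinf P S.1 (hBP S))
    have e2 : (P : Subgroup G) ⊓ S'.1 = (P : Subgroup G) ⊓ T :=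
      hkey P T _ (Ne.symm hT1) inf_le_left hT2' (hinf P S'.1 (hBP S'))
    have hSS : S = S' := by
      by_contra hne'
      have hne'' : S.1 ≠ S'.1 := fun h => hne' (Subtype.ext h)
      have e3 : (P : Subgroup G) ⊓ S.1 = (S.1 : Subgroup G) ⊓ S'.1 :=
        hkey S.1 S'.1 _ hne'' inf_le_right (by rw [e1, ← e2]; exact inf_le_right)
          (hinf P S.1 (hBP S))
      have e4 : D₃ = (S.1 : Subgroup G) ⊓ S'.1 := hkey S.1 S'.1 D₃ hne'' S.2 S'.2 hD₃card
      apply hD₃P
      rw [e4, ← e3]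
      exact inf_le_left
    subst hSS
    rfl
  have := Fintype.ofFinite {S : Sylow p G // D₃ ≤ S}
  have hcard := Nat.card_le_card_of_injective f hf
  rw [Nat.card_sigma] at hcard
  have hsum : (p + 1) * p ≤ ∑ S : {S : Sylow p G // D₃ ≤ S},
      Nat.card {T : Sylow p G // T ≠ P ∧ (P : Subgroup G) ⊓ S.1 ≤ T} := by
    calc (p + 1) * p ≤ Nat.card {S : Sylow p G // D₃ ≤ S} * p := Nat.mul_le_mul_right p hB
      _ = ∑ _S : {S : Sylow p G // D₃ ≤ S}, p := by
        rw [Finset.sum_const, Finset.card_univ, Nat.card_eq_fintype_card, smul_eq_mul]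
      _ ≤ _ := Finset.sum_le_sum (fun S _ => hY S)
  have hlt : Nat.card {T : Sylow p G // T ≠ P} < Nat.card (Sylow p G) := by
    have h1 : Nat.card {T : Sylow p G // T ≠ P} = ({T : Sylow p G | T ≠ P}).ncard :=
      Nat.card_coe_set_eq _
    rw [h1, ← Set.ncard_univ]
    apply Set.ncard_lt_ncard _ (Set.toFinite _)
    rw [Set.ssubset_univ_iff]
    intro heq
    have : P ∈ {T : Sylow p G | T ≠ P} := heq ▸ Set.mem_univ P
    exact this rfl
  have h2 : p ^ 2 = p * p := pow_two p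
  nlinarith

end Cfsg.Agent.H21
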