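import Cfsg.Agent.H21.Counting
import Cfsg.Agent.H21.SylowInter
import Cfsg.Agent.H21.OddPerm

set_option autoImplicit false

namespace Cfsg.Agent.H21

open Subgroup

/-- A subgroup `K` containing the normalizer `N` of a Sylow `p`-subgroup has `[K : N] ≡ 1 mod p`. -/
theorem relIndex_normalizer_mod {G : Type*} [Group G] [Finite G] {p : ℕ} [Fact p.Prime]
    (P : Sylow p G) (K : Subgroup G) (hK : normalizer ((P : Subgroup G) : Set G) ≤ K) :
    (normalizer ((P : Subgroup G) : Set G)).relIndex K % p = 1 := by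
  have hp : p.Prime := Fact.out
  have hPK : (P : Subgroup G) ≤ K := le_normalizer.trans hK
  have h1 := card_sylow_modEq_one p K
  have h2 := Sylow.card_eq_index_normalizer (P.subtype hPK)
  have h3 : normalizer (((P.subtype hPK : Sylow p K) : Subgroup K) : Set K) =
      (normalizer ((P : Subgroup G) : Set G)).subgroupOf K := by
    rw [Sylow.coe_subtype, Subgroup.subgroupOf_normalizer_eq hPK]
  have h4 : (normalizer ((P : Subgroup G) : Set G)).relIndex K = Nat.card (Sylow p K) := by
    rw [h2]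
    show ((normalizer ((P : Subgroup G) : Set G)).subgroupOf K).index = _
    rw [← h3]
    rfl
  rw [h4]
  unfold Nat.ModEq at h1
  rw [h1, Nat.mod_eq_of_lt hp.one_lt]

/-- In a finite group of even order, the number of solutions of `s ^ 2 = 1` is even. -/
theorem even_card_sq_eq_one (V : Type*) [Group V] [Finite V] (hV : 2 ∣ Nat.card V) :
    2 ∣ Nat.card {s : V // s ^ 2 = 1} := by
  classical
  have := Fintype.ofFinite V
  let f : Function.End V := fun x => x⁻¹
  have hf : f ^ 2 ^ 1 = 1 := by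
    rw [pow_one, pow_two]
    funext x
    show (x⁻¹)⁻¹ = x
    rw [inv_inv]
  have h1 := Equiv.Perm.card_fixedPoints_modEq (p := 2) (n := 1) hf
  have h2 : Fintype.card (Function.fixedPoints f) = Nat.card {s : V // s ^ 2 = 1} := by
    rw [← Nat.card_eq_fintype_card]
    apply Nat.card_congr
    refine Equiv.subtypeEquivRight (fun x => ?_)
    show x⁻¹ = x ↔ x ^ 2 = 1
    rw [pow_two, inv_eq_iff_mul_eq_one]
  rw [h2, ← Nat.card_eq_fintype_card] at h1
  exact (Nat.modEq_zero_iff_dvd.1 (h1.symm.trans (Nat.modEq_zero_iff_dvd.2 hV)))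

/-- A `2`-group `R` permuting by conjugation the solutions of `s ^ 2 = 1` in an even-order
subgroup `V` centralizes an involution of `V`. -/
theorem exists_fixed_involution {G : Type*} [Group G] [Finite G] (R V : Subgroup G)
    (hR : IsPGroup 2 R) (hV : 2 ∣ Nat.card V)
    (hinv : ∀ r ∈ R, ∀ s ∈ V, s ^ 2 = 1 → r * s * r⁻¹ ∈ V) :
    ∃ z ∈ V, z ≠ 1 ∧ z ^ 2 = 1 ∧ ∀ r ∈ R, r * z * r⁻¹ = z := by
  classical
  let J := {s : G // s ∈ V ∧ s ^ 2 = 1}
  let act : MulAction R J :=
    { smul := fun r s => ⟨(r : G) * s.1 * (r : G)⁻¹, hinv r r.2 s.1 s.2.1 s.2.2, by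
        rw [conj_pow, s.2.2]; group⟩
      one_smul := fun s => Subtype.ext (by
        show ((1 : R) : G) * s.1 * ((1 : R) : G)⁻¹ = s.1
        simp)
      mul_smul := fun a b s => Subtype.ext (by
        show ((a * b : R) : G) * s.1 * ((a * b : R) : G)⁻¹ =
          (a : G) * ((b : G) * s.1 * (b : G)⁻¹) * (a : G)⁻¹
        simp [mul_assoc]) }
  have hJ : 2 ∣ Nat.card J := by
    have h := even_card_sq_eq_one V hV
    have e : {s : V // s ^ 2 = 1} ≃ J :=
      { toFun := fun s => ⟨s.1.1, s.1.2, by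
          have := congrArg Subtype.val s.2
          simpa using this⟩
        invFun := fun s => ⟨⟨s.1, s.2.1⟩, Subtype.ext (by simpa using s.2.2)⟩
        left_inv := fun s => rfl
        right_inv := fun s => rfl }
    rwa [Nat.card_congr e] at h
  have : Fact (Nat.Prime 2) := ⟨Nat.prime_two⟩
  have h1 := hR.card_modEq_card_fixedPoints J
  have h2 : 2 ∣ Nat.card (MulAction.fixedPoints R J) :=
    Nat.modEq_zero_iff_dvd.1 (h1.symm.trans (Nat.modEq_zero_iff_dvd.2 hJ))
  let one' : MulAction.fixedPoints R J := ⟨⟨1, V.one_mem, one_pow 2⟩, fun r => Subtype.ext (by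
    show (r : G) * 1 * (r : G)⁻¹ = 1
    simp)⟩
  have h3 : 1 < Nat.card (MulAction.fixedPoints R J) := by
    have hpos : 0 < Nat.card (MulAction.fixedPoints R J) :=
      Nat.card_pos_iff.2 ⟨⟨one'⟩, inferInstance⟩
    obtain ⟨k, hk⟩ := h2
    omega
  have hnt : Nontrivial (MulAction.fixedPoints R J) := Finite.one_lt_card_iff_nontrivial.1 h3
  obtain ⟨z, hz⟩ := exists_ne one'
  refine ⟨z.1.1, z.1.2.1, ?_, z.1.2.2, fun r hr => ?_⟩
  · intro h
    apply hz
    apply Subtype.ext
    apply Subtype.ext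
    exact h
  · have := z.2 ⟨r, hr⟩
    exact congrArg Subtype.val this

/-- **Central involution trick.**  Let `P` be a Sylow `p`-subgroup of order `p` (`p` odd) whose
normalizer `N` is `P ⋊ T` with `T` a `2`-group that is not a Sylow `2`-subgroup of `G`, contains
an involution centralizing `P`, and such that involutions of `N` commuting with an element of
order `p` centralize `P`.  If `N` is a maximal subgroup and `Z(G) = 1`, we get a contradiction. -/
theorem central_involution_trick {G : Type*} [Group G] [Finite G] {p : ℕ} [Fact p.Prime]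
    (hp2 : p ≠ 2) (P : Sylow p G) (hP : Nat.card (P : Subgroup G) = p)
    (hcenter : Subgroup.center G = ⊥)
    (T : Subgroup G) (hT : IsPGroup 2 T) (hTN : T ≤ normalizer ((P : Subgroup G) : Set G))
    (hcard : Nat.card (normalizer ((P : Subgroup G) : Set G)) = p * Nat.card T)
    (hTC : ∃ s ∈ T, s ∈ centralizer ((P : Subgroup G) : Set G) ∧ orderOf s = 2)
    (hlt : 2 * Nat.card T ∣ Nat.card G)
    (hb : ∀ s ∈ normalizer ((P : Subgroup G) : Set G), orderOf s = 2 →
      (∃ y, orderOf y = p ∧ y * s = s * y) → s ∈ centralizer ((P : Subgroup G) : Set G))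
    (hc : ∀ K : Subgroup G, normalizer ((P : Subgroup G) : Set G) ≤ K →
      K = normalizer ((P : Subgroup G) : Set G) ∨ K = ⊤) : False := by
  classical
  have hp : p.Prime := Fact.out
  have : Fact (Nat.Prime 2) := ⟨Nat.prime_two⟩
  obtain ⟨S, hTS⟩ := hT.exists_le_sylow
  obtain ⟨a, ha⟩ := hT.exists_card_eq
  have hSdvd : 2 ^ (a + 1) ∣ Nat.card (S : Subgroup G) :=
    S.pow_dvd_card_of_pow_dvd_card (by rw [pow_succ, ← ha, mul_comm]; exact hlt)
  have hTS' : T < S := by
    refine lt_of_le_of_ne hTS ?_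
    intro h
    rw [← h, ha] at hSdvd
    have h1 := Nat.le_of_dvd (pow_pos (by norm_num) a) hSdvd
    rw [pow_succ] at h1
    have h2 := pow_pos (show 0 < 2 by norm_num) a
    omega
  obtain ⟨g, hgS, hgN, hgT⟩ := exists_normalizer_not_mem S.2 hTS'
  obtain ⟨R, hRdef⟩ : ∃ R : Subgroup G, R = (S : Subgroup G) ⊓ normalizer (T : Set G) := ⟨_, rfl⟩
  have hR : IsPGroup 2 R := hRdef ▸ S.2.to_le inf_le_left
  have hTR : T ≤ R := hRdef ▸ le_inf hTS le_normalizer
  have hgR : g ∈ R := hRdef ▸ ⟨hgS, hgN⟩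
  have hRN : R ≤ normalizer (T : Set G) := hRdef ▸ inf_le_right
  obtain ⟨V, hVdef⟩ : ∃ V : Subgroup G, V = T ⊓ centralizer ((P : Subgroup G) : Set G) := ⟨_, rfl⟩
  have hV : 2 ∣ Nat.card V := by
    obtain ⟨s, hsT, hsC, hs⟩ := hTC
    have := orderOf_dvd_card_of_mem V s (hVdef ▸ ⟨hsT, hsC⟩)
    rwa [hs] at this
  obtain ⟨y, hyP, hy⟩ := exists_mem_orderOf_eq_prime (P : Subgroup G) p (by rw [hP])
  have hinv : ∀ r ∈ R, ∀ s ∈ V, s ^ 2 = 1 → r * s * r⁻¹ ∈ V := by
    intro r hr s hs hs2
    rw [hVdef] at hs ⊢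
    have hrT : r * s * r⁻¹ ∈ T := (mem_normalizer_iff.1 (hRN hr) s).1 hs.1
    refine ⟨hrT, ?_⟩
    by_cases hs1 : s = 1
    · rw [hs1]
      simp
    · have hso : orderOf s = 2 := orderOf_eq_prime hs2 hs1
      apply hb _ (hTN hrT) (by rw [Cfsg.Agent.S1018.orderOf_conj_eq, hso])
      refine ⟨r * y * r⁻¹, by rw [Cfsg.Agent.S1018.orderOf_conj_eq, hy], ?_⟩
      have hys : y * s = s * y := hs.2 y hyP
      calc r * y * r⁻¹ * (r * s * r⁻¹) = r * (y * s) * r⁻¹ := by group
        _ = r * (s * y) * r⁻¹ := by rw [hys]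
        _ = r * s * r⁻¹ * (r * y * r⁻¹) := by group
  obtain ⟨z, hzV, hz1, hz2, hzR⟩ := exists_fixed_involution R V hR hV hinv
  rw [hVdef] at hzV
  have hcomm : ∀ x : G, x * z * x⁻¹ = z → x ∈ centralizer ({z} : Set G) := by
    intro x hx
    rw [mem_centralizer_iff]
    intro w hw
    rw [Set.mem_singleton_iff] at hw
    subst hw
    calc w * x = (x * w * x⁻¹) * x := by rw [hx]
      _ = x * w := by group
  have hPz : (P : Subgroup G) ≤ centralizer ({z} : Set G) := by
    intro x hx
    rw [mem_centralizer_iff]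
    intro w hw
    rw [Set.mem_singleton_iff] at hw
    subst hw
    exact (hzV.2 x hx).symm
  have hTz : T ≤ centralizer ({z} : Set G) := fun x hx => hcomm x (hzR x (hTR hx))
  have hNz : normalizer ((P : Subgroup G) : Set G) ≤ centralizer ({z} : Set G) := by
    have hsup : (P : Subgroup G) ⊔ T = normalizer ((P : Subgroup G) : Set G) := by
      apply Subgroup.eq_of_le_of_card_ge (sup_le le_normalizer hTN)
      rw [hcard]
      have h1 : p ∣ Nat.card ((P : Subgroup G) ⊔ T : Subgroup G) := by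
        have := Subgroup.card_dvd_of_le (le_sup_left : (P : Subgroup G) ≤ (P : Subgroup G) ⊔ T)
        rwa [hP] at this
      have h2 : Nat.card T ∣ Nat.card ((P : Subgroup G) ⊔ T : Subgroup G) :=
        Subgroup.card_dvd_of_le le_sup_right
      have hcop : Nat.Coprime p (Nat.card T) := by
        rw [ha]
        apply Nat.Coprime.pow_right
        exact (Nat.coprime_primes hp Nat.prime_two).2 hp2
      exact Nat.le_of_dvd Nat.card_pos (hcop.mul_dvd_of_dvd_of_dvd h1 h2)
    rw [← hsup]
    exact sup_le hPz hTz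
  rcases hc _ hNz with h | h
  · have hgz : g ∈ centralizer ({z} : Set G) := hcomm g (hzR g hgR)
    rw [h] at hgz
    have hSN : T = (S : Subgroup G) ⊓ normalizer ((P : Subgroup G) : Set G) := by
      apply Subgroup.eq_of_le_of_card_ge (le_inf hTS hTN)
      have h2grp : IsPGroup 2 ((S : Subgroup G) ⊓ normalizer ((P : Subgroup G) : Set G) : Subgroup G) :=
        S.2.to_le inf_le_left
      obtain ⟨j, hj⟩ := h2grp.exists_card_eq
      have hdvd : 2 ^ j ∣ p * Nat.card T := by
        rw [← hj, ← hcard]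
        exact Subgroup.card_dvd_of_le inf_le_right
      have hcop : Nat.Coprime (2 ^ j) p :=
        Nat.Coprime.pow_left _ ((Nat.coprime_primes Nat.prime_two hp).2 (Ne.symm hp2))
      rw [hj]
      exact Nat.le_of_dvd Nat.card_pos (hcop.dvd_of_dvd_mul_left hdvd)
    exact hgT (hSN ▸ (⟨hgS, hgz⟩ : g ∈ (S : Subgroup G) ⊓ normalizer ((P : Subgroup G) : Set G)))
  · have hzc : z ∈ Subgroup.center G := by
      rw [Subgroup.mem_center_iff]
      intro x
      have hx : x ∈ centralizer ({z} : Set G) := h ▸ Subgroup.mem_top x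
      exact (mem_centralizer_iff.1 hx z rfl).symm
    rw [hcenter, mem_bot] at hzc
    exact hz1 hzc

/-- In a non-abelian simple group, under a numeric condition on `n_p`, an involution of `N(P)`
(`|P| = p`) commuting with an element of order `p` centralizes `P`. -/
theorem involution_commuting_mem_centralizer {G : Type*} [Group G] [Finite G] [IsSimpleGroup G]
    (hG : ¬ IsMulCommutative G) {p : ℕ} [Fact p.Prime] (P : Sylow p G)
    (hP : Nat.card (P : Subgroup G) = p)
    (hnum : ∀ f : ℕ, 1 ≤ f → f * p ≤ Nat.card (Sylow p G) + (p - 1) →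
      4 ∣ Nat.card (Sylow p G) - f → f % p ≠ 0 ∧ f % p ≠ 1)
    (s : G) (hsN : s ∈ normalizer ((P : Subgroup G) : Set G)) (hs : orderOf s = 2)
    (hy : ∃ y, orderOf y = p ∧ y * s = s * y) : s ∈ centralizer ((P : Subgroup G) : Set G) := by
  by_contra hsC
  have hp : p.Prime := Fact.out
  obtain ⟨y, hyo, hys⟩ := hy
  have h1 := card_fixedBy_mul_le_sylow_prime p P hP s hsN hsC
  have h2 := one_le_card_fixedBy_of_mem _ s hsN
  have h3 := simple_involution_four_dvd hG (X := G ⧸ normalizer ((P : Subgroup G) : Set G)) s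
    (by rw [← hs, pow_orderOf_eq_one])
  have h4 : Nat.card (G ⧸ normalizer ((P : Subgroup G) : Set G)) = Nat.card (Sylow p G) :=
    (Sylow.card_eq_index_normalizer P).symm
  rw [h4] at h3
  obtain ⟨hn0, hn1⟩ := hnum _ h2 h1 h3
  have hpy : IsPGroup p (zpowers y) :=
    IsPGroup.of_card (n := 1) (by rw [Nat.card_zpowers, hyo, pow_one])
  have h5 := card_fixedBy_modEq_of_commute (X := G ⧸ normalizer ((P : Subgroup G) : Set G))
    (zpowers y) hpy s (by
      intro h hh
      obtain ⟨k, rfl⟩ := mem_zpowers_iff.1 hh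
      exact ((Commute.zpow_left (show Commute y s from hys) k).eq))
  have h6 : Nat.card {x : G ⧸ normalizer ((P : Subgroup G) : Set G) //
      s • x = x ∧ ∀ h ∈ zpowers y, h • x = x} ≤ 1 := by
    have hone := (Cfsg.Agent.S1018.result p P hP).1 y hyo
    rw [← hone]
    apply Nat.card_le_card_of_injective
      (fun a => (⟨a.1, a.2.2 y (mem_zpowers y)⟩ : MulAction.fixedBy _ y))
    intro a b hab
    have hab' := congrArg Subtype.val hab
    exact Subtype.ext hab'
  unfold Nat.ModEq at h5
  generalize Nat.card {x : G ⧸ normalizer ((P : Subgroup G) : Set G) //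
      s • x = x ∧ ∀ h ∈ zpowers y, h • x = x} = c at *
  interval_cases c
  · rw [Nat.zero_mod] at h5
    exact hn0 h5
  · rw [Nat.mod_eq_of_lt hp.one_lt] at h5
    exact hn1 h5

/-- An element of `p`-power order fixes `≡ |X| mod p` points. -/
theorem card_fixedBy_modEq_card_of_prime_pow {G X : Type*} [Group G] [MulAction G X] [Finite X]
    {p : ℕ} [Fact p.Prime] (x : G) (k : ℕ) (hx : orderOf x = p ^ k) :
    Nat.card (MulAction.fixedBy X x) ≡ Nat.card X [MOD p] := by
  have hpx : IsPGroup p (zpowers x) :=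
    IsPGroup.of_card (n := k) (by rw [Nat.card_zpowers, hx])
  have h1 := hpx.card_modEq_card_fixedPoints X
  have h2 : Nat.card (MulAction.fixedPoints (zpowers x) X) = Nat.card (MulAction.fixedBy X x) := by
    apply Nat.card_congr
    refine Equiv.subtypeEquivRight (fun a => ?_)
    constructor
    · intro h
      exact h ⟨x, mem_zpowers x⟩
    · rintro h ⟨g, hg⟩
      obtain ⟨j, rfl⟩ := mem_zpowers_iff.1 hg
      exact MulAction.fixedBy_subset_fixedBy_zpow X x j h
  rw [h2] at h1
  exact h1.symm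

/-- Burnside's lemma when every non-identity element of `Q` fixes exactly `f` points. -/
theorem card_dvd_of_fixedBy_const {G X : Type*} [Group G] [Finite G] [MulAction G X] [Finite X]
    (Q : Subgroup G) (f : ℕ)
    (h : ∀ x ∈ Q, x ≠ 1 → Nat.card (MulAction.fixedBy X x) = f) :
    Nat.card Q ∣ Nat.card X + (Nat.card Q - 1) * f := by
  classical
  have := Fintype.ofFinite Q
  have := Fintype.ofFinite X
  have : Fintype (MulAction.orbitRel.Quotient Q X) := Fintype.ofFinite _
  have hB := MulAction.sum_card_fixedBy_eq_card_orbits_mul_card_group Q X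
  have h1 : ∀ a : Q, a ≠ 1 → Fintype.card (MulAction.fixedBy X a) = f := by
    intro a ha
    rw [← Nat.card_eq_fintype_card]
    exact h a a.2 (by simpa using ha)
  have h0 : Fintype.card (MulAction.fixedBy X (1 : Q)) = Nat.card X := by
    rw [← Nat.card_eq_fintype_card, MulAction.fixedBy_one_eq_univ, Nat.card_coe_set_eq,
      Set.ncard_univ]
  rw [← Finset.add_sum_erase Finset.univ _ (Finset.mem_univ (1 : Q)), h0,
    Finset.sum_congr rfl (fun a ha => h1 a (Finset.ne_of_mem_erase ha)), Finset.sum_const,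
    Finset.card_erase_of_mem (Finset.mem_univ _), Finset.card_univ, ← Nat.card_eq_fintype_card,
    smul_eq_mul] at hB
  rw [hB]
  exact dvd_mul_left _ _

/-- A `p`-element of a subgroup `H` lies in a "Sylow `p`-subgroup of `H`". -/
theorem exists_sylow_subgroup_le_containing {G : Type*} [Group G] [Finite G] (H : Subgroup G)
    {p k m : ℕ} [Fact p.Prime] (hcard : Nat.card H = p ^ k * m) (hm : ¬ p ∣ m) (t : G)
    (ht : t ∈ H) (j : ℕ) (hto : orderOf t = p ^ j) :
    ∃ T : Subgroup G, T ≤ H ∧ Nat.card T = p ^ k ∧ IsPGroup p T ∧ t ∈ T := by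
  have hpt : IsPGroup p (zpowers (⟨t, ht⟩ : H)) :=
    IsPGroup.of_card (n := j) (by rw [Nat.card_zpowers, Subgroup.orderOf_mk, hto])
  obtain ⟨T', hT'⟩ := hpt.exists_le_sylow
  refine ⟨(T' : Subgroup H).map H.subtype, Subgroup.map_subtype_le _, ?_, ?_, ?_⟩
  · rw [Subgroup.card_map_of_injective H.subtype_injective]
    exact sylow_card_of_card_eq hcard hm T'
  · exact T'.2.map H.subtype
  · exact ⟨⟨t, ht⟩, hT' (mem_zpowers _), rfl⟩

/-- A non-abelian simple group has trivial center. -/
theorem simple_center_eq_bot {G : Type*} [Group G] [IsSimpleGroup G]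
    (hG : ¬ IsMulCommutative G) : Subgroup.center G = ⊥ := by
  have hnorm : (Subgroup.center G).Normal := inferInstance
  rcases hnorm.eq_bot_or_eq_top with h | h
  · exact h
  · exfalso
    apply hG
    refine ⟨⟨fun a b => ?_⟩⟩
    have hb : b ∈ Subgroup.center G := h ▸ Subgroup.mem_top b
    exact (Subgroup.mem_center_iff.1 hb a)

end Cfsg.Agent.H21
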