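import Mathlib
import Cfsg.Agent.H21.SimpleTools
import Cfsg.Agent.H21.Counting
import Cfsg.Agent.H21.PrimeSylow
import Cfsg.Agent.H21.PrimeSylowFix
import Cfsg.Agent.H21.OddPerm
import Cfsg.Agent.H21.ZTrick
import Cfsg.Agent.H21.SylowDesign
import Cfsg.Agent.H21.FixCount
import Cfsg.Agent.H21.PrimeNC
import Cfsg.Agent.S1018

set_option autoImplicit false

namespace Cfsg.Agent.H21

open Subgroup

/-- In a non-abelian simple group no non-trivial subgroup lies in all Sylow `p`-subgroups. -/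
theorem simple_sylow_core {G : Type*} [Group G] [Finite G] [IsSimpleGroup G]
    (hG : ¬ IsMulCommutative G) {p : ℕ} [Fact p.Prime]
    (D : Subgroup G) (hD : ∀ Q : Sylow p G, D ≤ Q) : D = ⊥ := by
  obtain ⟨P⟩ : Nonempty (Sylow p G) := inferInstance
  have hnorm : ((P : Subgroup G).normalCore).Normal := inferInstance
  have hle : D ≤ (P : Subgroup G).normalCore := by
    intro d hd b
    have := hD (b⁻¹ • P) hd
    rw [mem_smul_sylow_iff] at this
    simpa using this
  rcases hnorm.eq_bot_or_eq_top with h | h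
  · rw [h] at hle
    exact le_bot_iff.1 hle
  · exfalso
    apply simple_sylow_ne_top hG P
    have := Subgroup.normalCore_le (P : Subgroup G)
    rw [h] at this
    exact top_le_iff.1 this

/-- Splitting a finite subtype along a second predicate. -/
theorem card_subtype_split {α : Type*} [Finite α] (p q : α → Prop) :
    Nat.card {a : α // p a} = Nat.card {a : α // p a ∧ q a} + Nat.card {a : α // p a ∧ ¬ q a} := by
  have h1 : Nat.card {a : α // p a} = ({a : α | p a}).ncard := Nat.card_coe_set_eq _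
  have h2 : Nat.card {a : α // p a ∧ q a} = ({a : α | p a ∧ q a}).ncard := Nat.card_coe_set_eq _
  have h3 : Nat.card {a : α // p a ∧ ¬ q a} = ({a : α | p a ∧ ¬ q a}).ncard :=
    Nat.card_coe_set_eq _
  have h4 : {a : α | p a} = {a : α | p a ∧ q a} ∪ {a : α | p a ∧ ¬ q a} := by
    ext a
    simp only [Set.mem_ofPred_eq, Set.mem_union]
    tauto
  have h5 : Disjoint {a : α | p a ∧ q a} {a : α | p a ∧ ¬ q a} := by
    rw [Set.disjoint_left]
    intro a ha hb
    exact hb.2 ha.2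
  rw [h1, h2, h3, h4, Set.ncard_union_eq h5 (Set.toFinite _) (Set.toFinite _)]

/-- **Simple case**: a non-abelian simple group does not have exactly `21` Sylow
`5`-subgroups. -/
theorem simple_card_sylow_five_ne {G : Type*} [Group G] [Finite G] [IsSimpleGroup G]
    (hG : ¬ IsMulCommutative G) (h21 : Nat.card (Sylow 5 G) = 21) : False := by
  classical
  have : Fact (Nat.Prime 5) := ⟨by norm_num⟩
  have hp5 : Nat.Prime 5 := by norm_num
  -- Step 1: a Sylow 2-subgroup `T` and a Sylow 5-subgroup `P` normalized by `T`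
  obtain ⟨T⟩ : Nonempty (Sylow 2 G) := inferInstance
  obtain ⟨P, hTP⟩ : ∃ P : Sylow 5 G,
      (T : Subgroup G) ≤ normalizer ((P : Subgroup G) : Set G) := by
    have h1 := T.2.card_modEq_card_fixedPoints (Sylow 5 G)
    rw [h21] at h1
    have h2 : Nat.card (MulAction.fixedPoints (T : Subgroup G) (Sylow 5 G)) ≠ 0 := by
      intro h0
      rw [h0] at h1
      exact absurd h1 (by decide)
    rw [Nat.card_ne_zero] at h2
    obtain ⟨⟨P, hP⟩⟩ := h2.1
    exact ⟨P, (Subgroup.sylow_mem_fixedPoints_iff _).1 hP⟩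
  -- Step 2: `|P| = 5`
  have hPne : (P : Subgroup G) ≠ ⊥ := by
    intro hb
    have h1 : Nat.card (Sylow 5 G) = (normalizer ((P : Subgroup G) : Set G)).index :=
      Sylow.card_eq_index_normalizer P
    have h2 : normalizer ((P : Subgroup G) : Set G) = ⊤ := by
      rw [hb]
      exact Subgroup.normalizer_eq_top_iff.2 inferInstance
    rw [h21] at h1
    have h3 : (normalizer ((P : Subgroup G) : Set G)).index = 1 := by
      rw [h2, Subgroup.index_top]
    omega
  have hP : Nat.card (P : Subgroup G) = 5 :=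
    sylow_card_eq_prime_of_few (by rw [h21]; norm_num) (fun D hD => simple_sylow_core hG D hD)
      P hPne
  obtain ⟨N, hN⟩ : ∃ N : Subgroup G, N = normalizer ((P : Subgroup G) : Set G) := ⟨_, rfl⟩
  obtain ⟨C, hC⟩ : ∃ C : Subgroup G, C = centralizer ((P : Subgroup G) : Set G) := ⟨_, rfl⟩
  have hNidx : N.index = 21 := by
    have h1 : Nat.card (Sylow 5 G) = (normalizer ((P : Subgroup G) : Set G)).index :=
      Sylow.card_eq_index_normalizer P
    rw [hN, ← h1, h21]
  have hNtop : N ≠ ⊤ := by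
    intro h
    rw [h, Subgroup.index_top] at hNidx
    omega
  have hCN : C ≤ N := by rw [hC, hN]; exact Subgroup.centralizer_le_normalizer _
  have hcardΩ : Nat.card (G ⧸ N) = 21 := hNidx
  obtain ⟨fx, hfx⟩ : ∃ fx : G → ℕ, ∀ g, fx g = Nat.card (MulAction.fixedBy (G ⧸ N) g) :=
    ⟨_, fun _ => rfl⟩
  -- fixed point facts
  have f2a : ∀ y : G, orderOf y = 5 → fx y = 1 := by
    intro y hy
    rw [hfx, hN]
    exact (Cfsg.Agent.S1018.result 5 P hP).1 y hy
  have f2b : ∀ c ∈ C, fx c % 5 = 1 := by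
    intro c hc
    rw [hC] at hc
    have h := card_fixedBy_modEq_one_of_mem_centralizer 5 P hP c hc
    rw [← hN, ← hfx] at h
    unfold Nat.ModEq at h
    omega
  have f2c : ∀ g ∈ N, g ∉ C → fx g ≤ 5 := by
    intro g hg hgC
    rw [hN] at hg
    rw [hC] at hgC
    have h := card_fixedBy_mul_le_sylow_prime 5 P hP g hg hgC
    rw [← hN, ← hfx, h21] at h
    omega
  have f2d : ∀ u : G, u ^ 2 = 1 → 4 ∣ 21 - fx u := by
    intro u hu
    have h := simple_involution_four_dvd hG (X := G ⧸ N) u hu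
    rw [← hfx, hcardΩ] at h
    exact h
  have f2e : ∀ (q : ℕ) [Fact q.Prime] (g : G) (k : ℕ), orderOf g = q ^ k →
      fx g ≡ 21 [MOD q] := by
    intro q _ g k hg
    have h := card_fixedBy_modEq_card_of_prime_pow (X := G ⧸ N) g k hg
    rw [← hfx, hcardΩ] at h
    exact h
  have f2f : ∀ (g : G) (j : ℕ), fx g ≤ fx (g ^ j) := by
    intro g j
    rw [hfx, hfx]
    exact card_fixedBy_le_card_fixedBy_pow g j
  have f2g : ∀ g ∈ N, 1 ≤ fx g := by
    intro g hg
    rw [hfx]
    exact one_le_card_fixedBy_of_mem N g hg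
  have f2h : ∀ g : G, g ≠ 1 → fx g < 21 := by
    intro g hg
    have h := card_fixedBy_lt_index N hNtop g hg
    rw [← hfx, hNidx] at h
    exact h
  -- involutions
  have hinvC : ∀ u ∈ C, orderOf u = 2 → fx u = 1 := by
    intro u hu ho
    have h1 := f2b u hu
    have h2 := f2h u (by rintro rfl; simp at ho)
    have h3 := f2d u (by rw [← ho]; exact pow_orderOf_eq_one u)
    omega
  have hinvN : ∀ u ∈ N, orderOf u = 2 → fx u = 1 ∨ fx u = 5 := by
    intro u hu ho
    by_cases huC : u ∈ C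
    · left; exact hinvC u huC ho
    · have h1 := f2c u hu huC
      have h2 := f2g u hu
      have h3 := f2d u (by rw [← ho]; exact pow_orderOf_eq_one u)
      omega
  -- elements of `C` with at least two fixed points are `3`-elements with six fixed points
  have hC3 : ∀ c ∈ C, c ≠ 1 → 2 ≤ fx c → fx c = 6 := by
    intro c hc hc1 hfc
    have ho0 : orderOf c ≠ 0 := (orderOf_pos c).ne'
    have hq3 : ∀ {q : ℕ}, q.Prime → q ∣ orderOf c → q = 3 := by
      intro q hq hqd
      have : Fact q.Prime := ⟨hq⟩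
      obtain ⟨c', hc'⟩ : ∃ c' : G, c' = c ^ (orderOf c / q) := ⟨_, rfl⟩
      have hco : orderOf c' = q := by rw [hc']; exact orderOf_pow_orderOf_div ho0 hqd
      have hc'C : c' ∈ C := by rw [hc']; exact pow_mem hc _
      have hfc' : 2 ≤ fx c' := le_trans hfc (by rw [hc']; exact f2f c _)
      have hc'1 : c' ≠ 1 := by
        intro h
        rw [h, orderOf_one] at hco
        exact hq.one_lt.ne hco
      have h1 := f2b c' hc'C
      have h2 := f2h c' hc'1
      have h3 := f2e q c' 1 (by rw [hco, pow_one])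
      by_cases hq5 : q = 5
      · subst hq5
        have := f2a c' hco
        omega
      by_cases hq2 : q = 2
      · subst hq2
        have := hinvC c' hc'C hco
        omega
      have h4 : q ∣ 21 - fx c' := (Nat.modEq_iff_dvd' (by omega)).1 h3
      have h5 : fx c' = 6 ∨ fx c' = 11 ∨ fx c' = 16 := by omega
      rcases h5 with h5 | h5 | h5
      · rw [h5] at h4
        have h6 : q ∣ 3 * 5 := h4
        rcases (Nat.Prime.dvd_mul hq).1 h6 with h | h
        · exact (Nat.prime_dvd_prime_iff_eq hq Nat.prime_three).1 h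
        · exact absurd ((Nat.prime_dvd_prime_iff_eq hq hp5).1 h) hq5
      · rw [h5] at h4
        have h6 : q ∣ 2 * 5 := h4
        rcases (Nat.Prime.dvd_mul hq).1 h6 with h | h
        · exact absurd ((Nat.prime_dvd_prime_iff_eq hq Nat.prime_two).1 h) hq2
        · exact absurd ((Nat.prime_dvd_prime_iff_eq hq hp5).1 h) hq5
      · rw [h5] at h4
        have h6 : q ∣ 5 := h4
        exact absurd ((Nat.prime_dvd_prime_iff_eq hq hp5).1 h6) hq5
    have hpow := Nat.eq_prime_pow_of_unique_prime_dvd ho0 hq3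
    have : Fact (Nat.Prime 3) := ⟨by norm_num⟩
    have h3 := f2e 3 c _ hpow
    have h1 := f2b c hc
    have h2 := f2h c hc1
    unfold Nat.ModEq at h3
    omega
  -- the base point
  obtain ⟨α, hα⟩ : ∃ α : G ⧸ N, α = ((1 : G) : G ⧸ N) := ⟨_, rfl⟩
  have hfixα : ∀ g : G, g • α = α ↔ g ∈ N := by
    intro g
    rw [hα, eq_comm]
    show ((1 : G) : G ⧸ N) = ((g * 1 : G) : G ⧸ N) ↔ _
    rw [QuotientGroup.eq]
    simp
  have htwo : ∀ (g : G) (β : G ⧸ N), g ∈ N → β ≠ α → g • β = β → 2 ≤ fx g := by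
    intro g β hg hβ hgβ
    rw [hfx]
    have : Nontrivial (MulAction.fixedBy (G ⧸ N) g) :=
      ⟨⟨⟨α, (hfixα g).2 hg⟩, ⟨β, hgβ⟩, fun h => hβ (congrArg Subtype.val h).symm⟩⟩
    exact Finite.one_lt_card
  -- stabilizers in `C` of a second point have order at most `3`
  have hCβ : ∀ β : G ⧸ N, β ≠ α →
      Nat.card (C ⊓ MulAction.stabilizer G β : Subgroup G) ≤ 3 := by
    intro β hβ
    obtain ⟨Q, hQ⟩ : ∃ Q : Subgroup G, Q = C ⊓ MulAction.stabilizer G β := ⟨_, rfl⟩
    rw [← hQ]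
    have h6 : ∀ x ∈ Q, x ≠ 1 → Nat.card (MulAction.fixedBy (G ⧸ N) x) = 6 := by
      intro x hx hx1
      rw [hQ] at hx
      rw [← hfx]
      exact hC3 x hx.1 hx1 (htwo x β (hCN hx.1) hβ hx.2)
    have h7 := card_dvd_of_fixedBy_const Q 6 h6
    rw [hcardΩ] at h7
    have hQpos : 0 < Nat.card Q := Nat.card_pos
    have h8 : Nat.card Q ∣ 15 := by
      have e : 21 + (Nat.card Q - 1) * 6 = 15 + Nat.card Q * 6 := by omega
      rw [e] at h7
      exact (Nat.dvd_add_left (dvd_mul_right _ _)).1 h7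
    have h9 : ¬ 5 ∣ Nat.card Q := by
      intro h5
      obtain ⟨y, hyQ, hy⟩ := exists_mem_orderOf_eq_prime Q 5 h5
      have := f2a y hy
      have h6' := h6 y hyQ (by rintro rfl; simp at hy)
      rw [← hfx] at h6'
      omega
    have h10 := Nat.le_of_dvd (by norm_num) h8
    obtain ⟨m, hm⟩ : ∃ m, m = Nat.card Q := ⟨_, rfl⟩
    rw [← hm] at h8 h9 h10 ⊢
    interval_cases m <;> omega
  -- a generator of `P`
  obtain ⟨x₀, hx₀P, hx₀⟩ := exists_mem_orderOf_eq_prime (P : Subgroup G) 5 (by rw [hP])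
  have hPz : (P : Subgroup G) = zpowers x₀ :=
    eq_zpowers_of_card_prime (P : Subgroup G) hP x₀ hx₀P hx₀
  -- involutions with five fixed points
  obtain ⟨Bp, hBp⟩ : ∃ Bp : G → Prop, ∀ u, Bp u ↔ (orderOf u = 2 ∧ fx u = 5) :=
    ⟨fun u => orderOf u = 2 ∧ fx u = 5, fun _ => Iff.rfl⟩
  have hBconj : ∀ g u, Bp u → Bp (g * u * g⁻¹) := by
    intro g u hu
    rw [hBp] at hu ⊢
    refine ⟨by rw [Cfsg.Agent.S1018.orderOf_conj_eq]; exact hu.1, ?_⟩
    rw [hfx, card_fixedBy_conj, ← hfx]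
    exact hu.2
  have hBN : ∀ u, Bp u → u ∉ C := by
    intro u hu huC
    rw [hBp] at hu
    have := hinvC u huC hu.1
    omega
  have hBsq : ∀ u, Bp u → u ^ 2 = 1 := by
    intro u hu
    rw [hBp] at hu
    rw [← hu.1]
    exact pow_orderOf_eq_one u
  obtain ⟨b, hb⟩ : ∃ b : ℕ, b = Nat.card {u : G // Bp u ∧ u ∈ N} := ⟨_, rfl⟩
  have hb15 : b ≤ 15 := by
    have := Fintype.ofFinite G
    have hβ3 : ∀ β : {β : G ⧸ N // β ≠ α},
        Nat.card {u : G // (Bp u ∧ u ∈ N) ∧ u • β.1 = β.1} ≤ 3 := by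
      intro β
      by_cases hemp : IsEmpty {u : G // (Bp u ∧ u ∈ N) ∧ u • β.1 = β.1}
      · rw [Nat.card_of_isEmpty]
        omega
      · rw [not_isEmpty_iff] at hemp
        obtain ⟨⟨u₁, ⟨hu₁B, hu₁N⟩, hu₁β⟩⟩ := hemp
        refine le_trans ?_ (hCβ β.1 β.2)
        refine Nat.card_le_card_of_injective
          (fun u : {u : G // (Bp u ∧ u ∈ N) ∧ u • β.1 = β.1} =>
            (⟨u.1 * u₁, ?_⟩ : (C ⊓ MulAction.stabilizer G β.1 : Subgroup G))) ?_
        · rw [Subgroup.mem_inf]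
          refine ⟨?_, ?_⟩
          · rw [hC]
            exact mul_mem_centralizer_of_involutions (P : Subgroup G) x₀ hPz hx₀ u.1 u₁
              (hBsq _ u.2.1.1) (hN ▸ u.2.1.2) (hC ▸ hBN _ u.2.1.1)
              (hBsq _ hu₁B) (hN ▸ hu₁N) (hC ▸ hBN _ hu₁B)
          · rw [MulAction.mem_stabilizer_iff, mul_smul, hu₁β, u.2.2]
        · intro u v huv
          have h : u.1 * u₁ = v.1 * u₁ := congrArg Subtype.val huv
          exact Subtype.ext (mul_right_cancel h)
    have hu4 : ∀ u : {u : G // Bp u ∧ u ∈ N},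
        Nat.card {β : G ⧸ N // β ≠ α ∧ u.1 • β = β} = 4 := by
      intro u
      have h5 : fx u.1 = 5 := ((hBp u.1).1 u.2.1).2
      rw [hfx] at h5
      have e : (MulAction.fixedBy (G ⧸ N) u.1) =
          insert α {β : G ⧸ N | β ≠ α ∧ u.1 • β = β} := by
        ext β
        simp only [MulAction.mem_fixedBy, Set.mem_insert_iff, Set.mem_ofPred_eq]
        constructor
        · intro h
          by_cases hβ : β = α
          · left; exact hβ
          · right; exact ⟨hβ, h⟩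
        · rintro (rfl | ⟨_, h⟩)
          · exact (hfixα u.1).2 u.2.2
          · exact h
      have h6 : (MulAction.fixedBy (G ⧸ N) u.1).ncard = 5 := by
        rw [← Nat.card_coe_set_eq]
        exact h5
      rw [e, Set.ncard_insert_of_notMem (by simp)] at h6
      have h7 : Nat.card {β : G ⧸ N // β ≠ α ∧ u.1 • β = β} =
          ({β : G ⧸ N | β ≠ α ∧ u.1 • β = β}).ncard := Nat.card_coe_set_eq _
      omega
    let e1 : {p : G × (G ⧸ N) // (Bp p.1 ∧ p.1 ∈ N) ∧ p.2 ≠ α ∧ p.1 • p.2 = p.2} ≃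
        Σ u : {u : G // Bp u ∧ u ∈ N}, {β : G ⧸ N // β ≠ α ∧ u.1 • β = β} :=
      { toFun := fun p => ⟨⟨p.1.1, p.2.1⟩, ⟨p.1.2, p.2.2⟩⟩
        invFun := fun q => ⟨(q.1.1, q.2.1), q.1.2, q.2.2⟩
        left_inv := fun p => rfl
        right_inv := fun q => rfl }
    let e2 : {p : G × (G ⧸ N) // (Bp p.1 ∧ p.1 ∈ N) ∧ p.2 ≠ α ∧ p.1 • p.2 = p.2} ≃
        Σ β : {β : G ⧸ N // β ≠ α}, {u : G // (Bp u ∧ u ∈ N) ∧ u • β.1 = β.1} :=
      { toFun := fun p => ⟨⟨p.1.2, p.2.2.1⟩, ⟨p.1.1, p.2.1, p.2.2.2⟩⟩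
        invFun := fun q => ⟨(q.2.1, q.1.1), q.2.2.1, q.1.2, q.2.2.2⟩
        left_inv := fun p => rfl
        right_inv := fun q => rfl }
    have h3 := Nat.card_congr (e1.symm.trans e2)
    rw [Nat.card_sigma, Nat.card_sigma] at h3
    simp only [hu4] at h3
    simp only [Finset.sum_const, Finset.card_univ, smul_eq_mul] at h3
    have h4 : ∑ β : {β : G ⧸ N // β ≠ α}, Nat.card {u : G // (Bp u ∧ u ∈ N) ∧ u • β.1 = β.1}
        ≤ ∑ _β : {β : G ⧸ N // β ≠ α}, 3 := Finset.sum_le_sum (fun β _ => hβ3 β)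
    simp only [Finset.sum_const, Finset.card_univ, smul_eq_mul] at h4
    have h5 : Fintype.card {β : G ⧸ N // β ≠ α} ≤ 21 := by
      rw [← hcardΩ, Nat.card_eq_fintype_card]
      exact Fintype.card_subtype_le _
    rw [← Nat.card_eq_fintype_card, ← hb] at h3
    nlinarith
  -- `b = 0`
  have hPN : (P : Subgroup G) ≤ N := by rw [hN]; exact le_normalizer
  have hb0 : b = 0 := by
    have h1 := card_normal_mul_fixedBy N Bp hBconj 5
      (by intro u hu; rw [← hfx]; exact ((hBp u).1 hu).2)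
    rw [hNidx, ← hb] at h1
    have h2 : 5 ∣ Nat.card {u : G // Bp u ∧ ¬ u ∈ N} := by
      apply dvd_card_of_conj_free (P : Subgroup G) P.2 (fun u => Bp u ∧ ¬ u ∈ N)
      · intro x hx u hu
        refine ⟨hBconj x u hu.1, fun h => hu.2 ?_⟩
        have hxN : x ∈ N := hPN hx
        have : u = x⁻¹ * (x * u * x⁻¹) * x := by group
        rw [this]
        exact mul_mem (mul_mem (inv_mem hxN) h) hxN
      · intro u hu
        refine ⟨x₀, hx₀P, fun h => hu.2 (hCN ?_)⟩
        rw [hC]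
        apply mem_centralizer_of_commute_gen (P : Subgroup G) x₀ hPz
        calc u * x₀ = (x₀ * u * x₀⁻¹)⁻¹⁻¹ * x₀ := by rw [h, inv_inv]
          _ = x₀ * u := by group
    have h3 := card_subtype_split Bp (fun u => u ∈ N)
    rw [← hb] at h3
    obtain ⟨j, hj⟩ := h2
    omega
  -- all involutions of `N` have exactly one fixed point
  have hinvN1 : ∀ u ∈ N, orderOf u = 2 → fx u = 1 := by
    intro u hu ho
    rcases hinvN u hu ho with h | h
    · exact h
    · exfalso
      have hne : Nonempty {u : G // Bp u ∧ u ∈ N} := ⟨⟨u, (hBp u).2 ⟨ho, h⟩, hu⟩⟩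
      have hpos : 0 < Nat.card {u : G // Bp u ∧ u ∈ N} := Nat.card_pos
      omega
  have hTN : (T : Subgroup G) ≤ N := by rw [hN]; exact hTP
  have hT1 : ∀ t ∈ (T : Subgroup G), t ≠ 1 → fx t = 1 := by
    intro t ht ht1
    obtain ⟨k, hk⟩ := (IsPGroup.iff_orderOf.1 T.2) ⟨t, ht⟩
    rw [Subgroup.orderOf_mk] at hk
    have hk0 : k ≠ 0 := by
      rintro rfl
      rw [pow_zero, orderOf_eq_one_iff] at hk
      exact ht1 hk
    have h2 : 2 ∣ orderOf t := by
      rw [hk]
      exact dvd_pow_self 2 hk0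
    have hu : orderOf (t ^ (orderOf t / 2)) = 2 :=
      orderOf_pow_orderOf_div (orderOf_pos t).ne' h2
    have h3 := hinvN1 _ (hTN (pow_mem ht _)) hu
    have h4 := f2f t (orderOf t / 2)
    have h5 := f2g t (hTN ht)
    omega
  have hTcard : Nat.card (T : Subgroup G) ∣ 20 := by
    have h := card_dvd_of_fixedBy_const (X := G ⧸ N) (T : Subgroup G) 1
      (by intro x hx hx1; rw [← hfx]; exact hT1 x hx hx1)
    rw [hcardΩ] at h
    have hpos : 0 < Nat.card (T : Subgroup G) := Nat.card_pos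
    have e : 21 + (Nat.card (T : Subgroup G) - 1) * 1 = 20 + Nat.card (T : Subgroup G) := by
      omega
    rw [e] at h
    exact (Nat.dvd_add_left (dvd_refl _)).1 h
  obtain ⟨k, hk⟩ := IsPGroup.iff_card.1 T.2
  have hk2 : k ≤ 2 := by
    by_contra hcon
    have h1 : 2 ^ 3 ∣ 2 ^ k := pow_dvd_pow 2 (by omega)
    rw [← hk] at h1
    have h2 := h1.trans hTcard
    omega
  -- `[N : C]` is even
  obtain ⟨d, hd, hd1, hd4, hdN⟩ := simple_sylow_prime_card_NC hG P hP
  have hCd := card_centralizer_mul_relIndex_normalizer (P : Subgroup G)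
  rw [← hd, ← hC, ← hN] at hCd
  have hd2 : 2 ∣ d := by
    have h1 : d ∣ 4 := hd4
    have h2 := Nat.le_of_dvd (by norm_num) h1
    interval_cases d <;> omega
  have hGeven : 2 ∣ Nat.card G := by
    have h1 : d ∣ Nat.card N := ⟨Nat.card C, by rw [← hCd, mul_comm]⟩
    exact (hd2.trans h1).trans (Subgroup.card_subgroup_dvd_card N)
  have hTne : (T : Subgroup G) ≠ ⊥ := T.ne_bot_of_dvd_card hGeven
  have hk0 : k ≠ 0 := by
    rintro rfl
    rw [pow_zero] at hk
    exact hTne (Subgroup.card_eq_one.1 hk)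
  have hTcomm : ∀ a ∈ (T : Subgroup G), ∀ b ∈ (T : Subgroup G), a * b = b * a := by
    intro a ha b hb
    have hk12 : k = 1 ∨ k = 2 := by omega
    rcases hk12 with rfl | rfl
    · rw [pow_one] at hk
      have : IsCyclic (T : Subgroup G) := isCyclic_of_prime_card hk
      have hcomm := (IsCyclic.commGroup (α := (T : Subgroup G))).mul_comm ⟨a, ha⟩ ⟨b, hb⟩
      exact congrArg Subtype.val hcomm
    · have hcomm := IsPGroup.commutative_of_card_eq_prime_sq hk ⟨a, ha⟩ ⟨b, hb⟩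
      exact congrArg Subtype.val hcomm
  have hTC : ¬ (T : Subgroup G) ≤ C := by
    intro hle
    have h1 : Nat.card (T : Subgroup G) ∣ Nat.card C := Subgroup.card_dvd_of_le hle
    have h2 : Nat.card (T : Subgroup G) * 2 ∣ Nat.card G := by
      have h3 : Nat.card C * d ∣ Nat.card G := by
        rw [hCd]
        exact Subgroup.card_subgroup_dvd_card N
      exact (Nat.mul_dvd_mul h1 hd2).trans h3
    rw [Sylow.card_eq_multiplicity, ← pow_succ] at h2
    exact Nat.pow_succ_factorization_not_dvd (Nat.card_pos.ne') Nat.prime_two h2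
  obtain ⟨Z₀, hZ₀⟩ : ∃ Z₀ : Subgroup G, Z₀ = (T : Subgroup G) ⊓ C := ⟨_, rfl⟩
  have hZ₀T : Z₀ ≤ (T : Subgroup G) := hZ₀ ▸ inf_le_left
  have hZ₀card : Nat.card Z₀ ≤ 2 := by
    have h1 : Nat.card Z₀ ∣ Nat.card (T : Subgroup G) := Subgroup.card_dvd_of_le hZ₀T
    have h2 : Nat.card Z₀ ≠ Nat.card (T : Subgroup G) := by
      intro heq
      apply hTC
      have h3 : Z₀ = (T : Subgroup G) := Subgroup.eq_of_le_of_card_ge hZ₀T (by omega)
      rw [← h3, hZ₀]
      exact inf_le_right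
    rw [hk] at h1 h2
    obtain ⟨j, hj, hj2⟩ := (Nat.dvd_prime_pow Nat.prime_two).1 h1
    rw [hj2] at h2 ⊢
    have hjk : j < k := lt_of_le_of_ne hj (fun h => h2 (by rw [h]))
    have hj1 : j ≤ 1 := by omega
    calc 2 ^ j ≤ 2 ^ 1 := Nat.pow_le_pow_right (by norm_num) hj1
      _ = 2 := by norm_num
  have hZ₀sq : ∀ c ∈ Z₀, c * c = 1 := by
    intro c hc
    have h1 : orderOf c ∣ Nat.card Z₀ := orderOf_dvd_card_of_mem Z₀ c hc
    have h2 : orderOf c ≤ 2 := le_trans (Nat.le_of_dvd Nat.card_pos h1) hZ₀card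
    have h3 : orderOf c ∣ 2 := by
      have h4 := orderOf_pos c
      obtain ⟨o, ho⟩ : ∃ o, o = orderOf c := ⟨_, rfl⟩
      rw [← ho] at h2 h4 ⊢
      interval_cases o <;> simp
    rw [← pow_two]
    exact orderOf_dvd_iff_pow_eq_one.1 h3
  -- `N_G(T) ≤ C_G(T)`, contradicting Burnside's transfer theorem
  apply simple_not_normalizer_le_centralizer hG T hTne
  intro y hy
  have hyconj : ∀ t ∈ (T : Subgroup G), y * t * y⁻¹ ∈ (T : Subgroup G) :=
    fun t ht => (mem_normalizer_iff.1 hy t).1 ht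
  have hyN : y ∈ N := by
    obtain ⟨⟨t₀, ht₀⟩, ht₀1⟩ := (Subgroup.ne_bot_iff_exists_ne_one).1 hTne
    have ht₀1' : t₀ ≠ 1 := fun h => ht₀1 (Subtype.ext h)
    have h1 : y * t₀ * y⁻¹ ∈ (T : Subgroup G) := hyconj t₀ ht₀
    have h2 : y * t₀ * y⁻¹ ≠ 1 := by
      intro h
      apply ht₀1'
      have : t₀ = y⁻¹ * (y * t₀ * y⁻¹) * y := by group
      rw [this, h]
      simp
    have h3 := hT1 _ h1 h2
    rw [hfx, Nat.card_eq_one_iff_unique] at h3
    have ha : (y * t₀ * y⁻¹) • α = α := (hfixα _).2 (hTN h1)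
    have hb' : (y * t₀ * y⁻¹) • (y • α) = y • α := by
      rw [← mul_smul]
      have : y * t₀ * y⁻¹ * y = y * t₀ := by group
      rw [this, mul_smul, (hfixα t₀).2 (hTN ht₀)]
    have h4 := h3.1.elim (⟨α, ha⟩ : MulAction.fixedBy (G ⧸ N) (y * t₀ * y⁻¹)) ⟨y • α, hb'⟩
    have h5 : α = y • α := congrArg Subtype.val h4
    exact (hfixα y).1 h5.symm
  rw [mem_centralizer_iff]
  intro t ht
  obtain ⟨c, hc⟩ : ∃ c : G, c = t⁻¹ * (y * t * y⁻¹) := ⟨_, rfl⟩
  have hcZ : c ∈ Z₀ := by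
    rw [hZ₀, Subgroup.mem_inf, hc]
    refine ⟨mul_mem (inv_mem ht) (hyconj t ht), ?_⟩
    rw [hC]
    exact commutator_mem_centralizer_of_cyclic (P : Subgroup G) x₀ hPz y t (hN ▸ hyN)
      (hN ▸ hTN ht)
  have hycZ : y * c * y⁻¹ ∈ Z₀ := by
    rw [hZ₀, Subgroup.mem_inf] at hcZ ⊢
    refine ⟨hyconj c hcZ.1, ?_⟩
    rw [hC]
    exact conj_mem_centralizer_of_mem_normalizer (P : Subgroup G) y c (hN ▸ hyN) (hC ▸ hcZ.2)
  have hyc : y * c * y⁻¹ = c := conj_eq_of_card_le_two Z₀ hZ₀card y c hcZ hycZ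
  have hy2 : (y * y) * t = t * (y * y) := by
    have e1 : y * t * y⁻¹ = t * c := by rw [hc]; group
    have e2 : y * (y * t * y⁻¹) * y⁻¹ = t := by
      rw [e1]
      have : y * (t * c) * y⁻¹ = (y * t * y⁻¹) * (y * c * y⁻¹) := by group
      rw [this, e1, hyc, mul_assoc, hZ₀sq c hcZ, mul_one]
    calc (y * y) * t = (y * (y * t * y⁻¹) * y⁻¹) * (y * y) := by group
      _ = t * (y * y) := by rw [e2]
  obtain ⟨a, m, hm, hom⟩ := Nat.exists_eq_two_pow_mul_odd (orderOf_pos y).ne'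
  have hym : y ^ m ∈ (T : Subgroup G) := by
    apply mem_sylow_of_mem_normalizer T (y ^ m) a
    · rw [orderOf_pow, hom]
      have : Nat.gcd (2 ^ a * m) m = m := Nat.gcd_eq_right (dvd_mul_left m _)
      rw [this]
      exact Nat.mul_div_cancel _ hm.pos
    · exact pow_mem hy m
  have hc4 : Commute (y ^ m) t := hTcomm _ hym t ht
  obtain ⟨j, hj⟩ := hm
  have e3 : y ^ m = (y * y) ^ j * y := by rw [hj, pow_succ, pow_mul, pow_two]
  have hc2 : Commute (y * y) t := hy2
  have hc3 : Commute ((y * y) ^ j) t := hc2.pow_left j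
  have e4 : y = ((y * y) ^ j)⁻¹ * y ^ m := by rw [e3]; group
  have hc5 : Commute y t := by
    rw [e4]
    exact (hc3.inv_left).mul_left hc4
  exact hc5.eq.symm

end Cfsg.Agent.H21
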