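import Mathlib
import Cfsg.Agent.H21.PrimeSylow
import Cfsg.Agent.H21.SylowInter2
import Cfsg.Agent.H21.ZTrick

set_option autoImplicit false

namespace Cfsg.Agent.H21

open Subgroup

/-- A normal subgroup normalizing one Sylow `p`-subgroup normalizes all of them. -/
theorem normal_le_normalizer_sylow {G : Type*} [Group G] [Finite G] {p : ℕ} [Fact p.Prime]
    (M : Subgroup G) [hM : M.Normal] (P Q : Sylow p G)
    (h : M ≤ normalizer ((P : Subgroup G) : Set G)) :
    M ≤ normalizer ((Q : Subgroup G) : Set G) := by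
  obtain ⟨g, rfl⟩ := MulAction.exists_smul_eq G P Q
  intro m hm
  have h1 : g⁻¹ * m * g ∈ normalizer ((P : Subgroup G) : Set G) := by
    apply h
    have := hM.conj_mem m hm g⁻¹
    simpa using this
  have h2 : (g⁻¹ * m * g) • P = P := Sylow.smul_eq_iff_mem_normalizer.2 h1
  have h3 : m • g • P = g • P := by
    calc m • g • P = g • (g⁻¹ * m * g) • P := by
          rw [← mul_smul, ← mul_smul]; congr 1; group
      _ = g • P := by rw [h2]
  exact Sylow.smul_eq_iff_mem_normalizer.1 h3

/-- Factoring out a normal subgroup that normalizes every Sylow `p`-subgroup does not change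
the number of Sylow `p`-subgroups. -/
theorem card_sylow_quotient {G : Type*} [Group G] [Finite G] {p : ℕ} [Fact p.Prime]
    (K : Subgroup G) [K.Normal]
    (hK : ∀ Q : Sylow p G, K ≤ normalizer ((Q : Subgroup G) : Set G)) :
    Nat.card (Sylow p (G ⧸ K)) = Nat.card (Sylow p G) := by
  have hf : Function.Surjective (QuotientGroup.mk' K) := QuotientGroup.mk'_surjective K
  have hinj : Function.Injective (Sylow.mapSurjective hf : Sylow p G → Sylow p (G ⧸ K)) := by
    intro Q₁ Q₂ h
    have h' : (Q₁ : Subgroup G).map (QuotientGroup.mk' K) =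
        (Q₂ : Subgroup G).map (QuotientGroup.mk' K) := by
      have := congrArg (fun S : Sylow p (G ⧸ K) => (S : Subgroup (G ⧸ K))) h
      simpa using this
    have hle : (Q₂ : Subgroup G) ≤ Q₁ := by
      intro q hq
      have h1 : QuotientGroup.mk' K q ∈ (Q₁ : Subgroup G).map (QuotientGroup.mk' K) := by
        rw [h']; exact Subgroup.mem_map_of_mem _ hq
      obtain ⟨q₁, hq₁, he⟩ := Subgroup.mem_map.1 h1
      have h2 : q₁⁻¹ * q ∈ K := QuotientGroup.eq.1 he
      have h3 : q ∈ normalizer ((Q₁ : Subgroup G) : Set G) := by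
        have h4 := hK Q₁ h2
        have h5 : q₁ ∈ normalizer ((Q₁ : Subgroup G) : Set G) := le_normalizer hq₁
        have := mul_mem h5 h4
        simpa using this
      obtain ⟨k, hk⟩ := (IsPGroup.iff_orderOf.1 Q₂.2) ⟨q, hq⟩
      rw [Subgroup.orderOf_mk] at hk
      exact mem_sylow_of_mem_normalizer Q₁ q k hk h3
    exact Sylow.ext (Q₂.is_maximal' Q₁.2 hle)
  exact (Nat.card_congr (Equiv.ofBijective _ ⟨hinj, Sylow.mapSurjective_surjective hf p⟩)).symm

/-- If `H M = G` with `M` normal then `[M : M ∩ H] = [G : H]`. -/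
theorem relIndex_eq_index_of_sup_eq_top {G : Type*} [Group G] [Finite G] (M H : Subgroup G)
    [M.Normal] (h : H ⊔ M = ⊤) : H.relIndex M = H.index := by
  have h1 : M.relIndex H = M.index := by
    rw [← Subgroup.relIndex_sup_right H M, h, Subgroup.relIndex_top_right]
  have h2 := card_inf_mul_relIndex M H
  have h3 := card_inf_mul_relIndex H M
  have h4 := Subgroup.card_mul_index M
  have h5 := Subgroup.card_mul_index H
  rw [inf_comm] at h3
  have hpos : 0 < Nat.card (M ⊓ H : Subgroup G) := Nat.card_pos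
  have hpos2 : 0 < M.index := Nat.pos_of_ne_zero Subgroup.index_ne_zero_of_finite
  have key : Nat.card (M ⊓ H : Subgroup G) * M.index * H.relIndex M =
      Nat.card (M ⊓ H : Subgroup G) * M.index * H.index := by
    calc Nat.card (M ⊓ H : Subgroup G) * M.index * H.relIndex M
        = (Nat.card (M ⊓ H : Subgroup G) * H.relIndex M) * M.index := by ring
      _ = Nat.card M * M.index := by rw [h3]
      _ = Nat.card G := h4
      _ = Nat.card H * H.index := h5.symm
      _ = (Nat.card (M ⊓ H : Subgroup G) * M.relIndex H) * H.index := by rw [h2]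
      _ = Nat.card (M ⊓ H : Subgroup G) * M.index * H.index := by rw [h1]
  exact Nat.eq_of_mul_eq_mul_left (Nat.mul_pos hpos hpos2) key

/-- A Sylow `p`-subgroup of a subgroup `M` is the intersection of `M` with any Sylow
`p`-subgroup of `G` containing it. -/
theorem sylow_map_subtype_eq_inf {G : Type*} [Group G] [Finite G] {p : ℕ} [Fact p.Prime]
    (M : Subgroup G) (PM : Sylow p M) (P : Sylow p G)
    (h : (PM : Subgroup M).map M.subtype ≤ P) :
    (PM : Subgroup M).map M.subtype = (P : Subgroup G) ⊓ M := by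
  have h1 : IsPGroup p (((P : Subgroup G) ⊓ M).subgroupOf M) := by
    rw [Subgroup.inf_subgroupOf_right]
    exact P.2.comap_subtype
  have h2 : (PM : Subgroup M) ≤ ((P : Subgroup G) ⊓ M).subgroupOf M := by
    intro x hx
    rw [Subgroup.mem_subgroupOf]
    exact ⟨h (Subgroup.mem_map_of_mem _ hx), x.2⟩
  have h3 := PM.is_maximal' h1 h2
  rw [← h3, Subgroup.subgroupOf_map_subtype, inf_assoc, inf_idem]

/-- The normalizer of `P` normalizes `P ⊓ M` for `M` normal. -/
theorem normalizer_le_normalizer_inf_normal {G : Type*} [Group G] (P M : Subgroup G)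
    [hM : M.Normal] :
    normalizer (P : Set G) ≤ normalizer ((P ⊓ M : Subgroup G) : Set G) := by
  intro g hg
  rw [Subgroup.mem_normalizer_iff] at hg ⊢
  intro x
  rw [Subgroup.mem_inf, Subgroup.mem_inf, ← hg x]
  constructor
  · rintro ⟨h1, h2⟩
    exact ⟨h1, hM.conj_mem x h2 g⟩
  · rintro ⟨h1, h2⟩
    refine ⟨h1, ?_⟩
    have := hM.conj_mem _ h2 g⁻¹
    simpa [mul_assoc] using this

/-- Fixed points of a `p`-group `P` acting by conjugation on a subgroup `S` it normalizes:
`|C_S(P)| ≡ |S| mod p`. -/
theorem card_inf_centralizer_modEq {G : Type*} [Group G] [Finite G] {p : ℕ} [Fact p.Prime]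
    (P S : Subgroup G) (hP : IsPGroup p P) (h : P ≤ normalizer (S : Set G)) :
    Nat.card (S ⊓ centralizer (P : Set G) : Subgroup G) ≡ Nat.card S [MOD p] := by
  classical
  let act : MulAction P S :=
    { smul := fun r s => ⟨(r : G) * s.1 * (r : G)⁻¹,
        (Subgroup.mem_normalizer_iff.1 (h r.2) s.1).1 s.2⟩
      one_smul := fun s => Subtype.ext (by
        show ((1 : P) : G) * s.1 * ((1 : P) : G)⁻¹ = s.1
        simp)
      mul_smul := fun a b s => Subtype.ext (by
        show ((a * b : P) : G) * s.1 * ((a * b : P) : G)⁻¹ =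
          (a : G) * ((b : G) * s.1 * (b : G)⁻¹) * (a : G)⁻¹
        simp [mul_assoc]) }
  have h1 := hP.card_modEq_card_fixedPoints S
  have e : MulAction.fixedPoints P S ≃ (S ⊓ centralizer (P : Set G) : Subgroup G) :=
    { toFun := fun s => ⟨s.1.1, s.1.2, fun r hr => by
          have h' : r * s.1.1 * r⁻¹ = s.1.1 := congrArg Subtype.val (s.2 ⟨r, hr⟩)
          calc r * s.1.1 = (r * s.1.1 * r⁻¹) * r := by group
            _ = s.1.1 * r := by rw [h']⟩
      invFun := fun s => ⟨⟨s.1, s.2.1⟩, fun r => Subtype.ext (by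
          show (r : G) * s.1 * (r : G)⁻¹ = s.1
          have := s.2.2 r r.2
          rw [this]; group)⟩
      left_inv := fun s => rfl
      right_inv := fun s => rfl }
  rw [Nat.card_congr e] at h1
  exact h1.symm

/-- A subgroup of index prime to `p` contains a Sylow `p`-subgroup. -/
theorem exists_sylow_le_of_not_dvd_index {G : Type*} [Group G] [Finite G] {p : ℕ} [Fact p.Prime]
    (H : Subgroup G) (h : ¬ p ∣ H.index) : ∃ P : Sylow p G, (P : Subgroup G) ≤ H := by
  obtain ⟨P₀⟩ : Nonempty (Sylow p H) := inferInstance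
  have hp : IsPGroup p ((P₀ : Subgroup H).map H.subtype) := P₀.2.map H.subtype
  have hidx : ¬ p ∣ ((P₀ : Subgroup H).map H.subtype).index := by
    rw [Subgroup.index_map_subtype]
    exact Nat.Prime.not_dvd_mul Fact.out P₀.not_dvd_index h
  exact ⟨hp.toSylow hidx, Subgroup.map_subtype_le _⟩

end Cfsg.Agent.H21
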