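import Mathlib
import Cfsg.Agent.H21.SylowReduce
import Cfsg.Agent.H21.N21Simple

set_option autoImplicit false

namespace Cfsg.Agent.H21

open Subgroup

/-- In a group with `21` Sylow `5`-subgroups whose action on them is faithful and whose proper
subgroups do not have `21` Sylow `5`-subgroups, there is no proper non-trivial normal
subgroup. -/
theorem n21_no_normal {G : Type*} [Group G] [Finite G] (h21 : Nat.card (Sylow 5 G) = 21)
    (hcore : ∀ M : Subgroup G, M.Normal →
      (∀ Q : Sylow 5 G, M ≤ normalizer ((Q : Subgroup G) : Set G)) → M = ⊥)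
    (hsub : ∀ M : Subgroup G, M ≠ ⊤ → Nat.card (Sylow 5 M) ≠ 21)
    (M : Subgroup G) (hM : M.Normal) (hbot : M ≠ ⊥) (htop : M ≠ ⊤) : False := by
  classical
  have : Fact (Nat.Prime 5) := ⟨by norm_num⟩
  have : Fact (Nat.Prime 7) := ⟨by norm_num⟩
  have hidx : ∀ P : Sylow 5 G, (normalizer ((P : Subgroup G) : Set G)).index = 21 := by
    intro P
    have h : Nat.card (Sylow 5 G) = (normalizer ((P : Subgroup G) : Set G)).index :=
      Sylow.card_eq_index_normalizer P
    rw [← h, h21]
  have hsup : ∀ P : Sylow 5 G, normalizer ((P : Subgroup G) : Set G) ⊔ M = ⊤ := by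
    intro P
    have h1 := relIndex_normalizer_mod P (normalizer ((P : Subgroup G) : Set G) ⊔ M) le_sup_left
    have h2 : (normalizer ((P : Subgroup G) : Set G)).relIndex
        (normalizer ((P : Subgroup G) : Set G) ⊔ M) *
        (normalizer ((P : Subgroup G) : Set G) ⊔ M).index =
        (normalizer ((P : Subgroup G) : Set G)).index := Subgroup.relIndex_mul_index le_sup_left
    rw [hidx P] at h2
    obtain ⟨r, hr⟩ : ∃ r, r = (normalizer ((P : Subgroup G) : Set G)).relIndex
        (normalizer ((P : Subgroup G) : Set G) ⊔ M) := ⟨_, rfl⟩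
    rw [← hr] at h1 h2
    have h3 : r ∣ 21 := Dvd.intro _ h2
    have hle : r ≤ 21 := Nat.le_of_dvd (by norm_num) h3
    have h4 : r = 1 ∨ r = 21 := by
      interval_cases r <;> omega
    rcases h4 with h4 | h4
    · exfalso
      apply hbot
      apply hcore M hM
      intro Q
      rw [h4] at hr
      have h5 : M ≤ normalizer ((P : Subgroup G) : Set G) :=
        le_sup_right.trans (Subgroup.relIndex_eq_one.1 hr.symm)
      exact normal_le_normalizer_sylow M P Q h5
    · rw [h4] at h2
      apply Subgroup.index_eq_one.1
      omega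
  have hrel : ∀ P : Sylow 5 G, (normalizer ((P : Subgroup G) : Set G)).relIndex M = 21 := by
    intro P
    rw [relIndex_eq_index_of_sup_eq_top M _ (hsup P), hidx P]
  obtain ⟨P₀⟩ : Nonempty (Sylow 5 G) := inferInstance
  have h21M : 21 ∣ Nat.card M := by
    have := Subgroup.relIndex_dvd_card (normalizer ((P₀ : Subgroup G) : Set G)) M
    rwa [hrel P₀] at this
  by_cases h5 : 5 ∣ Nat.card M
  · -- the normal subgroup has order divisible by `5`: it has `21` Sylow `5`-subgroups
    apply hsub M htop
    obtain ⟨PM⟩ : Nonempty (Sylow 5 M) := inferInstance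
    have hPMne : (PM : Subgroup M) ≠ ⊥ := PM.ne_bot_of_dvd_card h5
    obtain ⟨D, hD⟩ : ∃ D : Subgroup G, D = (PM : Subgroup M).map M.subtype := ⟨_, rfl⟩
    have hDp : IsPGroup 5 D := by rw [hD]; exact PM.2.map M.subtype
    obtain ⟨P, hDP⟩ := hDp.exists_le_sylow
    have hDeq : D = (P : Subgroup G) ⊓ M := by
      rw [hD]; exact sylow_map_subtype_eq_inf M PM P (hD ▸ hDP)
    have hDne : D ≠ ⊥ := by
      rw [hD]
      intro h
      apply hPMne
      exact (Subgroup.map_eq_bot_iff_of_injective _ M.subtype_injective).1 h
    have hNP : normalizer ((P : Subgroup G) : Set G) ≤ normalizer (D : Set G) := by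
      rw [hDeq]; exact normalizer_le_normalizer_inf_normal _ M
    have hND : normalizer (D : Set G) ≠ ⊤ := by
      intro h
      apply hDne
      have hDn : D.Normal := Subgroup.normalizer_eq_top_iff.1 h
      apply hcore D hDn
      intro Q
      exact normal_le_normalizer_sylow D P Q (hDP.trans le_normalizer)
    have hNeq : normalizer (D : Set G) = normalizer ((P : Subgroup G) : Set G) := by
      refine le_antisymm ?_ hNP
      have h1 := relIndex_normalizer_mod P _ hNP
      have h2 := Subgroup.relIndex_mul_index hNP
      rw [hidx P] at h2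
      obtain ⟨r, hr⟩ : ∃ r, r = (normalizer ((P : Subgroup G) : Set G)).relIndex
          (normalizer (D : Set G)) := ⟨_, rfl⟩
      rw [← hr] at h1 h2
      have h3 : r ∣ 21 := Dvd.intro _ h2
      have hle : r ≤ 21 := Nat.le_of_dvd (by norm_num) h3
      have h4 : r = 1 ∨ r = 21 := by
        interval_cases r <;> omega
      rcases h4 with h4 | h4
      · rw [h4] at hr
        exact Subgroup.relIndex_eq_one.1 hr.symm
      · exfalso
        rw [h4] at h2
        apply hND
        apply Subgroup.index_eq_one.1
        omega
    have hc : Nat.card (Sylow 5 M) = (normalizer (((PM : Subgroup M)) : Set M)).index :=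
      Sylow.card_eq_index_normalizer PM
    have hPMD : (PM : Subgroup M) = D.subgroupOf M := by
      rw [hD]
      exact (Subgroup.comap_map_eq_self_of_injective M.subtype_injective _).symm
    have hDM : D ≤ M := by rw [hDeq]; exact inf_le_right
    rw [hc, hPMD, ← Subgroup.subgroupOf_normalizer_eq hDM]
    show (normalizer (D : Set G)).relIndex M = 21
    rw [hNeq, hrel P]
  · -- the normal subgroup has order prime to `5`: a Sylow `7`-subgroup argument
    have h7 : 7 ∣ Nat.card M := Dvd.dvd.trans (by norm_num) h21M
    obtain ⟨SM⟩ : Nonempty (Sylow 7 M) := inferInstance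
    obtain ⟨S, hS⟩ : ∃ S : Subgroup G, S = (SM : Subgroup M).map M.subtype := ⟨_, rfl⟩
    have hfr : normalizer (S : Set G) ⊔ M = ⊤ := by
      rw [hS]; exact Sylow.normalizer_sup_eq_top SM
    have hScard : Nat.card S = 7 ^ (Nat.card M).factorization 7 := by
      rw [hS, Subgroup.card_map_of_injective M.subtype_injective]
      exact SM.card_eq_multiplicity
    have hSM : S ≤ M := by rw [hS]; exact Subgroup.map_subtype_le _
    have hidxS : ¬ 5 ∣ (normalizer (S : Set G)).index := by
      rw [← relIndex_eq_index_of_sup_eq_top M _ hfr]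
      intro h
      exact h5 (h.trans (Subgroup.relIndex_dvd_card _ _))
    obtain ⟨P, hP⟩ := exists_sylow_le_of_not_dvd_index (p := 5) _ hidxS
    have hmod := card_inf_centralizer_modEq (P : Subgroup G) S P.2 hP
    -- `G` embeds in the symmetric group on its `21` Sylow `5`-subgroups
    have hG : Nat.card G ∣ Nat.factorial 21 := by
      have hinj : Function.Injective (MulAction.toPermHom G (Sylow 5 G)) := by
        rw [← MonoidHom.ker_eq_bot_iff]
        apply hcore _ inferInstance
        intro Q g hg
        have h1 : g • Q = Q := by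
          have := congrArg (fun σ : Equiv.Perm (Sylow 5 G) => σ Q) (MonoidHom.mem_ker.1 hg)
          simpa using this
        exact Sylow.smul_eq_iff_mem_normalizer.1 h1
      have := Subgroup.card_dvd_of_injective _ hinj
      rwa [Nat.card_perm, h21] at this
    have hv : (Nat.card M).factorization 7 ≤ 3 := by
      by_contra hv
      have h4 : 7 ^ 4 ∣ Nat.card M :=
        (pow_dvd_pow 7 (by omega)).trans (Nat.ordProj_dvd (Nat.card M) 7)
      have h5' : 7 ^ 4 ∣ Nat.factorial 21 :=
        h4.trans ((Subgroup.card_subgroup_dvd_card M).trans hG)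
      revert h5'
      decide
    obtain ⟨i, hi, hci⟩ : ∃ i ≤ (Nat.card M).factorization 7,
        Nat.card (S ⊓ centralizer ((P : Subgroup G) : Set G) : Subgroup G) = 7 ^ i := by
      have hdvd : Nat.card (S ⊓ centralizer ((P : Subgroup G) : Set G) : Subgroup G) ∣
          7 ^ (Nat.card M).factorization 7 := by
        rw [← hScard]; exact Subgroup.card_dvd_of_le inf_le_left
      exact (Nat.dvd_prime_pow (by norm_num)).1 hdvd
    rw [hci, hScard] at hmod
    have hij : i = (Nat.card M).factorization 7 := by
      obtain ⟨j, hj⟩ : ∃ j, j = (Nat.card M).factorization 7 := ⟨_, rfl⟩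
      rw [← hj] at hmod hi hv ⊢
      unfold Nat.ModEq at hmod
      interval_cases j <;> interval_cases i <;> first | rfl | (exfalso; revert hmod; decide)
    have hSle : S ≤ centralizer ((P : Subgroup G) : Set G) := by
      have h1 : (S ⊓ centralizer ((P : Subgroup G) : Set G) : Subgroup G) = S := by
        apply Subgroup.eq_of_le_of_card_ge inf_le_left
        rw [hci, hScard, hij]
      rw [← h1]; exact inf_le_right
    have hSN : S ≤ normalizer ((P : Subgroup G) : Set G) ⊓ M :=
      le_inf (hSle.trans (Subgroup.centralizer_le_normalizer _)) hSM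
    have hcm := card_inf_mul_relIndex (normalizer ((P : Subgroup G) : Set G)) M
    rw [hrel P] at hcm
    have hd1 : Nat.card S ∣ Nat.card (normalizer ((P : Subgroup G) : Set G) ⊓ M : Subgroup G) :=
      Subgroup.card_dvd_of_le hSN
    have hd2 : 7 ^ ((Nat.card M).factorization 7 + 1) ∣ Nat.card M := by
      have h8 : Nat.card S * 7 ∣
          Nat.card (normalizer ((P : Subgroup G) : Set G) ⊓ M : Subgroup G) * 21 :=
        Nat.mul_dvd_mul hd1 (by norm_num)
      rw [hcm, hScard] at h8
      rw [pow_succ]
      exact h8
    exact Nat.pow_succ_factorization_not_dvd (Nat.card_pos.ne') (by norm_num) hd2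

universe u

/-- No finite group has exactly `21` Sylow `5`-subgroups (induction on the order). -/
theorem card_sylow_five_ne_aux (n : ℕ) :
    ∀ (G : Type u) [Group G] [Finite G], Nat.card G = n → Nat.card (Sylow 5 G) ≠ 21 := by
  induction n using Nat.strong_induction_on with
  | _ n ih =>
    intro G _ _ hn h21
    have : Fact (Nat.Prime 5) := ⟨by norm_num⟩
    have hcore : ∀ M : Subgroup G, M.Normal →
        (∀ Q : Sylow 5 G, M ≤ normalizer ((Q : Subgroup G) : Set G)) → M = ⊥ := by
      intro M hM hMQ
      by_contra hne
      have h1 := card_sylow_quotient M hMQ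
      have hlt : Nat.card (G ⧸ M) < n := by
        rw [← hn, ← Subgroup.index_eq_card]
        have h2 := Subgroup.card_mul_index M
        have h3 : 1 < Nat.card M := (Subgroup.one_lt_card_iff_ne_bot M).2 hne
        have hpos : 0 < M.index := Nat.pos_of_ne_zero Subgroup.index_ne_zero_of_finite
        nlinarith
      exact ih _ hlt (G ⧸ M) rfl (h1.trans h21)
    have hsub : ∀ M : Subgroup G, M ≠ ⊤ → Nat.card (Sylow 5 M) ≠ 21 := by
      intro M hM
      refine ih (Nat.card M) ?_ M rfl
      rw [← hn]
      have h1 : Nat.card M ≤ Nat.card G := Subgroup.card_le_card_group M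
      have h2 : Nat.card M ≠ Nat.card G := fun h => hM (Subgroup.card_eq_iff_eq_top M |>.1 h)
      omega
    obtain ⟨P⟩ : Nonempty (Sylow 5 G) := inferInstance
    have hidx : Nat.card (Sylow 5 G) = (normalizer ((P : Subgroup G) : Set G)).index :=
      Sylow.card_eq_index_normalizer P
    have hsimple : IsSimpleGroup G := by
      have hnt : Nontrivial G := by
        apply Finite.one_lt_card_iff_nontrivial.1
        have h1 : (normalizer ((P : Subgroup G) : Set G)).index ∣ Nat.card G :=
          Subgroup.index_dvd_card _
        rw [← hidx, h21] at h1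
        have := Nat.le_of_dvd Nat.card_pos h1
        omega
      exact
        { exists_pair_ne := hnt.exists_pair_ne
          eq_bot_or_eq_top_of_normal := fun M hM => by
            by_contra h
            push Not at h
            exact n21_no_normal h21 hcore hsub M hM h.1 h.2 }
    have hnc : ¬ IsMulCommutative G := by
      intro hc
      have h1 : normalizer ((P : Subgroup G) : Set G) = ⊤ := by
        apply Subgroup.normalizer_eq_top_iff.2
        refine ⟨fun x hx g => ?_⟩
        have : g * x * g⁻¹ = x := by
          rw [hc.is_comm.comm g x, mul_assoc, mul_inv_cancel, mul_one]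
        rw [this]; exact hx
      rw [h1, Subgroup.index_top] at hidx
      omega
    exact simple_card_sylow_five_ne hnc h21

end Cfsg.Agent.H21
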