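import Mathlib
import Cfsg.Agent.H21.Orbits2
import Cfsg.Agent.H21.PrimeSylow
import Cfsg.Agent.H21.SimpleTools
import Cfsg.Agent.S1018
import Cfsg.Agent.S0989

set_option autoImplicit false

namespace Cfsg.Agent.H21

open Subgroup

/-- A normal subgroup acting nontrivially in a transitive group of prime degree has order
divisible by `p` and is transitive. -/
theorem dvd_card_of_normal_of_prime_degree {K α : Type*} [Group K] [MulAction K α]
    [Finite α] {p : ℕ} (hp : p.Prime) (hα : Nat.card α = p) [MulAction.IsPretransitive K α]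
    (M : Subgroup K) [M.Normal] (hM : ∃ m ∈ M, ∃ a : α, m • a ≠ a) :
    MulAction.IsPretransitive M α ∧ p ∣ Nat.card M := by
  have hprim : MulAction.IsPreprimitive K α := MulAction.IsPreprimitive.of_prime_card (hα ▸ hp)
  have hfix : MulAction.fixedPoints M α ≠ Set.univ := by
    obtain ⟨m, hm, a, ha⟩ := hM
    intro h
    have : a ∈ MulAction.fixedPoints M α := h ▸ Set.mem_univ a
    exact ha (this ⟨m, hm⟩)
  have htr : MulAction.IsPretransitive M α :=
    MulAction.IsQuasiPreprimitive.isPretransitive_of_normal hfix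
  refine ⟨htr, ?_⟩
  have hne : Nonempty α := by
    rw [← Nat.card_pos_iff.trans ⟨fun h => h.1, fun h => ⟨h, inferInstance⟩⟩, hα]
    exact hp.pos
  obtain ⟨a⟩ := hne
  have h1 := card_orbit_mul_card_stabilizer (P := M) (X := α) a
  rw [MulAction.orbit_eq_univ M a, Nat.card_coe_set_eq, Set.ncard_univ, hα] at h1
  exact ⟨_, h1.symm⟩

/-- A transitive faithful group of prime degree `p` with more than one Sylow `p`-subgroup, in
which a Sylow `p`-subgroup has prime index in its normalizer, is simple. -/
theorem isSimpleGroup_of_prime_degree {H α : Type*} [Group H] [Finite H] [MulAction H α]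
    [FaithfulSMul H α] [Finite α] {p : ℕ} [Fact p.Prime] (hα : Nat.card α = p)
    [MulAction.IsPretransitive H α] (P : Sylow p H) (hn : 1 < Nat.card (Sylow p H))
    (ht : (((P : Subgroup H).subgroupOf (normalizer ((P : Subgroup H) : Set H))).index).Prime) :
    IsSimpleGroup H := by
  classical
  have hp : p.Prime := Fact.out
  have := Fintype.ofFinite α
  have hdvdfact : Nat.card H ∣ p.factorial := by
    have hinj : Function.Injective (MulAction.toPermHom H α) := MulAction.toPerm_injective
    have := Subgroup.card_dvd_of_injective _ hinj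
    rwa [Nat.card_perm, hα] at this
  have hp2 : ¬ p ^ 2 ∣ Nat.card H := by
    intro h
    have h2 := h.trans hdvdfact
    have h1 : (p.factorial).factorization p = 1 :=
      Cfsg.Agent.S0989.factorization_factorial_self_or_succ p p hp (Or.inl rfl)
    have h3 := (hp.pow_dvd_iff_le_factorization (Nat.factorial_ne_zero p)).1 h2
    omega
  have hne : Nonempty α := by
    rw [← Nat.card_pos_iff.trans ⟨fun h => h.1, fun h => ⟨h, inferInstance⟩⟩, hα]
    exact hp.pos
  have hpH : p ∣ Nat.card H := by
    obtain ⟨a⟩ := hne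
    have h1 := card_orbit_mul_card_stabilizer (P := H) (X := α) a
    rw [MulAction.orbit_eq_univ H a, Nat.card_coe_set_eq, Set.ncard_univ, hα] at h1
    exact ⟨_, h1.symm⟩
  have hP : Nat.card (P : Subgroup H) = p := by
    obtain ⟨k, hk⟩ := P.2.exists_card_eq
    have hk1 : k ≠ 0 := by
      rintro rfl
      rw [pow_zero] at hk
      exact P.ne_bot_of_dvd_card hpH (Subgroup.card_eq_one.1 hk)
    have hk2 : k < 2 := by
      by_contra hge
      apply hp2
      have h1 : p ^ 2 ∣ p ^ k := pow_dvd_pow p (by omega)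
      rw [← hk] at h1
      exact h1.trans (Subgroup.card_subgroup_dvd_card _)
    have : k = 1 := by omega
    rw [hk, this, pow_one]
  have hnt : Nontrivial H := by
    rw [← Finite.one_lt_card_iff_nontrivial]
    exact lt_of_lt_of_le hp.one_lt (Nat.le_of_dvd Nat.card_pos hpH)
  refine ⟨fun K hK => ?_⟩
  by_cases hKbot : K = ⊥
  · exact Or.inl hKbot
  right
  have hKact : ∃ k ∈ K, ∃ a : α, k • a ≠ a := by
    obtain ⟨k, hk, hk1⟩ := K.bot_or_exists_ne_one.resolve_left hKbot
    by_contra hcon
    push Not at hcon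
    apply hk1
    apply FaithfulSMul.eq_of_smul_eq_smul (α := α)
    intro a
    rw [hcon k hk a, one_smul]
  obtain ⟨hKtr, hpK⟩ := dvd_card_of_normal_of_prime_degree hp hα K hKact
  have hPK : (P : Subgroup H) ≤ K := by
    obtain ⟨y, hyK, hy⟩ := exists_mem_orderOf_eq_prime K p hpK
    obtain ⟨c, hc⟩ := Cfsg.Agent.S1018.exists_conj_mem_sylow' P y hy
    have hco : orderOf (c * y * c⁻¹) = p := by rw [Cfsg.Agent.S1018.orderOf_conj_eq, hy]
    rw [eq_zpowers_of_card_prime (P : Subgroup H) hP _ hc hco, zpowers_le]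
    exact hK.conj_mem y hyK c
  obtain ⟨N, hN⟩ : ∃ N : Subgroup H, N = normalizer ((P : Subgroup H) : Set H) := ⟨_, rfl⟩
  have hPN : (P : Subgroup H) ≤ N := hN ▸ le_normalizer
  have hidx : (P : Subgroup H).relIndex (K ⊓ N) * (K ⊓ N).relIndex N = (P : Subgroup H).relIndex N :=
    Subgroup.relIndex_mul_relIndex _ _ _ (le_inf hPK hPN) inf_le_right
  have ht' : ((P : Subgroup H).relIndex N).Prime := by rw [hN]; exact ht
  rw [← hidx] at ht'
  rcases (Nat.prime_mul_iff.1 ht') with ⟨-, h1⟩ | ⟨-, h1⟩
  · have hNK : N ≤ K := le_trans (Subgroup.relIndex_eq_one.1 h1) inf_le_left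
    have hsup : N ⊔ K = ⊤ := by
      rw [hN]; exact Sylow.normalizer_sup_eq_top' P hPK
    rw [← hsup]
    exact (sup_eq_right.2 hNK).symm
  · exfalso
    have hKNP : K ⊓ N ≤ (P : Subgroup H) := Subgroup.relIndex_eq_one.1 h1
    obtain ⟨PK, hPKdef⟩ : ∃ PK : Sylow p K, PK = P.subtype hPK := ⟨_, rfl⟩
    have hPKcoe : (PK : Subgroup K) = (P : Subgroup H).subgroupOf K := by
      rw [hPKdef]; exact Sylow.coe_subtype P hPK
    have hNC : normalizer ((PK : Subgroup K) : Set K) ≤ centralizer ((PK : Subgroup K) : Set K) := by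
      intro x hx
      have hx' : x ∈ (normalizer ((P : Subgroup H) : Set H)).subgroupOf K := by
        rw [Subgroup.subgroupOf_normalizer_eq hPK, ← hPKcoe]; exact hx
      have hxP : (x : H) ∈ (P : Subgroup H) :=
        hKNP ⟨x.2, hN ▸ Subgroup.mem_subgroupOf.1 hx'⟩
      rw [mem_centralizer_iff]
      intro y hy
      have hyP : (y : H) ∈ (P : Subgroup H) := by
        have : y ∈ (P : Subgroup H).subgroupOf K := hPKcoe ▸ hy
        exact Subgroup.mem_subgroupOf.1 this
      apply Subtype.ext
      show (y : H) * x = x * y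
      have hcyc : IsCyclic (P : Subgroup H) := isCyclic_of_prime_card hP
      have := (IsCyclic.commGroup (α := (P : Subgroup H))).mul_comm ⟨y, hyP⟩ ⟨x, hxP⟩
      exact congrArg Subtype.val this
    have hcompl := MonoidHom.ker_transferSylow_isComplement' PK hNC
    obtain ⟨M, hM⟩ : ∃ M : Subgroup K, M = (MonoidHom.transferSylow PK hNC).ker := ⟨_, rfl⟩
    have hMnorm : M.Normal := hM ▸ MonoidHom.normal_ker _
    rw [← hM] at hcompl
    have hcard := hcompl.card_mul_card
    have hPKcard : Nat.card (PK : Subgroup K) = p := by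
      rw [hPKcoe]
      exact (Nat.card_congr (Subgroup.subgroupOfEquivOfLe hPK).toEquiv).trans hP
    rw [hPKcard] at hcard
    have hpM : ¬ p ∣ Nat.card M := by
      intro h
      apply hp2
      obtain ⟨e, he⟩ := h
      have : p ^ 2 ∣ Nat.card K := ⟨e, by rw [← hcard, he]; ring⟩
      exact this.trans (Subgroup.card_subgroup_dvd_card K)
    have hMbot : M = ⊥ := by
      by_contra hne
      obtain ⟨m, hm, hm1⟩ := M.bot_or_exists_ne_one.resolve_left hne
      apply hpM
      refine (dvd_card_of_normal_of_prime_degree (K := K) hp hα M ?_).2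
      by_contra hcon
      push Not at hcon
      apply hm1
      apply Subtype.ext
      apply FaithfulSMul.eq_of_smul_eq_smul (α := α)
      intro a
      have := hcon m hm a
      show (m : H) • a = (1 : H) • a
      rw [one_smul]
      exact this
    rw [hMbot, Subgroup.card_bot, one_mul] at hcard
    have hKP : (P : Subgroup H) = K := Subgroup.eq_of_le_of_card_ge hPK (by rw [hP, hcard])
    have hPnorm : (P : Subgroup H).Normal := hKP ▸ hK
    have hu := Sylow.unique_of_normal P hPnorm
    have : Nat.card (Sylow p H) = 1 := Nat.card_unique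
    omega

end Cfsg.Agent.H21
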