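import Cfsg.Agent.H11.SmallSimple

/-!
# Table for the orders up to 1092 (helper21)

Every `2 ≤ n ≤ 1092` outside an explicit list of 37 orders is excluded as the order of a
non-cyclic simple group by the Sylow or the Burnside arithmetic test of `H11.SmallSimple`.
The tests are run by boolean functions that the kernel evaluates quickly.
-/

set_option autoImplicit false

namespace Cfsg.Agent.H21.Small

open Cfsg.Agent.H11

/-- Boolean primality test by trial division, valid below `34 ^ 2`. -/
def primeB (p : ℕ) : Bool :=
  decide (2 ≤ p) && decide (p < 1156) &&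
    (List.range 34).all (fun m => decide (m < 2) || decide (p ≤ m) || !decide (m ∣ p))

theorem primeB_sound {p : ℕ} (h : primeB p = true) : 2 ≤ p ∧ ∀ m < p, 2 ≤ m → ¬ m ∣ p := by
  unfold primeB at h
  rw [Bool.and_eq_true, Bool.and_eq_true, decide_eq_true_eq, decide_eq_true_eq,
    List.all_eq_true] at h
  obtain ⟨⟨h2, hlt⟩, hall⟩ := h
  have hprime : p.Prime := by
    by_contra hnp
    have hsq := Nat.minFac_sq_le_self (by omega : 0 < p) hnp
    have hq : (Nat.minFac p).Prime := Nat.minFac_prime (by omega)
    have hq34 : Nat.minFac p < 34 := by nlinarith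
    have hqp : Nat.minFac p < p := by
      have := hq.two_le
      nlinarith
    have := hall _ (List.mem_range.mpr hq34)
    rw [Bool.or_eq_true, Bool.or_eq_true, decide_eq_true_eq, decide_eq_true_eq,
      Bool.not_eq_true', decide_eq_false_iff_not] at this
    rcases this with (h' | h') | h'
    · have := hq.two_le
      omega
    · omega
    · exact h' (Nat.minFac_dvd p)
  refine ⟨h2, fun m hm hm2 hdvd => ?_⟩
  rcases (Nat.dvd_prime hprime).mp hdvd with h' | h' <;> omega

/-- Boolean version of `SylowKills`: only the `d = 1 + p k` are inspected. -/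
def sylowB (n p : ℕ) : Bool :=
  primeB p && decide (p ∣ n) &&
    (List.range (n / p + 1)).all (fun k =>
      !(decide (1 + p * k ∣ n) && !decide (k = 0) && decide (n ∣ (1 + p * k).factorial)))

theorem sylowB_sound {n p : ℕ} (h : sylowB n p = true) : SylowKills n p := by
  unfold sylowB at h
  rw [Bool.and_eq_true, Bool.and_eq_true, decide_eq_true_eq, List.all_eq_true] at h
  obtain ⟨⟨hp, hpn⟩, hall⟩ := h
  have hp2 := (primeB_sound hp).1
  refine ⟨primeB_sound hp, hpn, fun d hd hdn hmod hd1 hfac => ?_⟩
  have hdk : d = 1 + p * (d / p) := by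
    have := Nat.div_add_mod d p
    omega
  have hk : d / p ≤ n / p := Nat.div_le_div_right hd
  have := hall (d / p) (List.mem_range.mpr (by omega))
  rw [← hdk, Bool.not_eq_true', Bool.and_eq_false_iff, Bool.and_eq_false_iff,
    decide_eq_false_iff_not, Bool.not_eq_false', decide_eq_true_eq,
    decide_eq_false_iff_not] at this
  rcases this with (h' | h') | h'
  · exact h' hdn
  · rw [h'] at hdk; omega
  · exact h' hfac

/-- Boolean version of `BurnsideKills`. -/
def burnB (n p : ℕ) : Bool :=
  primeB p && decide (p ∣ n) && !decide (p * p ∣ n) &&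
    (List.range (n / p + 1)).all (fun k =>
      !(decide (1 + p * k ∣ n) && !decide (k = 0) && decide (n ∣ (1 + p * k).factorial)) ||
        decide (Nat.gcd (n / ((1 + p * k) * p)) (p - 1) = 1))

theorem burnB_sound {n p : ℕ} (h : burnB n p = true) : BurnsideKills n p := by
  unfold burnB at h
  rw [Bool.and_eq_true, Bool.and_eq_true, Bool.and_eq_true, decide_eq_true_eq,
    Bool.not_eq_true', decide_eq_false_iff_not, List.all_eq_true] at h
  obtain ⟨⟨⟨hp, hpn⟩, hpp⟩, hall⟩ := h
  have hp2 := (primeB_sound hp).1
  refine ⟨primeB_sound hp, hpn, hpp, fun d hd hdn hmod hd1 hfac => ?_⟩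
  have hdk : d = 1 + p * (d / p) := by
    have := Nat.div_add_mod d p
    omega
  have hk : d / p ≤ n / p := Nat.div_le_div_right hd
  have := hall (d / p) (List.mem_range.mpr (by omega))
  rw [← hdk, Bool.or_eq_true, Bool.not_eq_true', Bool.and_eq_false_iff, Bool.and_eq_false_iff,
    decide_eq_false_iff_not, Bool.not_eq_false', decide_eq_true_eq,
    decide_eq_false_iff_not, decide_eq_true_eq] at this
  rcases this with ((h' | h') | h') | h'
  · exact absurd hdn h'
  · rw [h'] at hdk; omega
  · exact absurd hfac h'
  · exact h'

/-- The orders not handled by the table. -/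
def special : List ℕ := [60, 112, 120, 144, 168, 180, 240, 264, 288, 336, 360, 400, 420, 432, 480, 504, 528, 560, 576, 612, 660, 672, 720, 756, 760, 792, 800, 840, 864, 900, 960, 1008, 1040, 1053, 1056, 1080, 1092]

/-- One row of the table: an order with its witness prime. -/
def rowB (x : ℕ × ℕ) : Bool :=
  sylowB x.1 x.2 || burnB x.1 x.2 || special.contains x.1

theorem row_sound {x : ℕ × ℕ} (h : rowB x = true) :
    (∃ p, SylowKills x.1 p) ∨ (∃ p, BurnsideKills x.1 p) ∨ x.1 ∈ special := by
  unfold rowB at h
  rw [Bool.or_eq_true, Bool.or_eq_true] at h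
  rcases h with (h | h) | h
  · exact Or.inl ⟨_, sylowB_sound h⟩
  · exact Or.inr (Or.inl ⟨_, burnB_sound h⟩)
  · exact Or.inr (Or.inr (by simpa using h))

theorem chunk_sound (l : List (ℕ × ℕ)) (a len : ℕ) (hl : l.map Prod.fst = List.range' a len)
    (hall : l.all rowB = true) (n : ℕ) (ha : a ≤ n) (hb : n < a + len) :
    (∃ p, SylowKills n p) ∨ (∃ p, BurnsideKills n p) ∨ n ∈ special := by
  have hn : n ∈ l.map Prod.fst := by
    rw [hl]; exact List.mem_range'_1.mpr ⟨ha, hb⟩
  obtain ⟨x, hx, rfl⟩ := List.mem_map.mp hn
  exact row_sound (List.all_eq_true.mp hall x hx)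

/-- Rows `2 ≤ n < 300`. -/
def chunk0 : List (ℕ × ℕ) := [(2, 2), (3, 3), (4, 2), (5, 5), (6, 3), (7, 7), (8, 2), (9, 3), (10, 5), (11, 11), (12, 2), (13, 13), (14, 7), (15, 5), (16, 2), (17, 17), (18, 3), (19, 19), (20, 5), (21, 7), (22, 11), (23, 23), (24, 2), (25, 5), (26, 13), (27, 3), (28, 7), (29, 29), (30, 5), (31, 31), (32, 2), (33, 11), (34, 17), (35, 7), (36, 3), (37, 37), (38, 19), (39, 13), (40, 5), (41, 41), (42, 7), (43, 43), (44, 11), (45, 5), (46, 23), (47, 47), (48, 2), (49, 7), (50, 5), (51, 17), (52, 13), (53, 53), (54, 3), (55, 11), (56, 7), (57, 19), (58, 29), (59, 59), (60, 0), (61, 61), (62, 31), (63, 7), (64, 2), (65, 13), (66, 11), (67, 67), (68, 17), (69, 23), (70, 7), (71, 71), (72, 3), (73, 73), (74, 37), (75, 5), (76, 19), (77, 11), (78, 13), (79, 79), (80, 2), (81, 3), (82, 41), (83, 83), (84, 7), (85, 17), (86, 43), (87, 29), (88, 11), (89, 89), (90, 5), (91, 13), (92, 23), (93, 31), (94, 47), (95, 19), (96, 2), (97, 97), (98, 7), (99, 11), (100, 5), (101, 101), (102, 17), (103, 103), (104, 13), (105, 7), (106, 53), (107, 107), (108, 3),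 (109, 109), (110, 11), (111, 37), (112, 0), (113, 113), (114, 19), (115, 23), (116, 29), (117, 13), (118, 59), (119, 17), (120, 0), (121, 11), (122, 61), (123, 41), (124, 31), (125, 5), (126, 7), (127, 127), (128, 2), (129, 43), (130, 13), (131, 131), (132, 11), (133, 19), (134, 67), (135, 5), (136, 17), (137, 137), (138, 23), (139, 139), (140, 7), (141, 47), (142, 71), (143, 13), (144, 0), (145, 29), (146, 73), (147, 7), (148, 37), (149, 149), (150, 5), (151, 151), (152, 19), (153, 17), (154, 11), (155, 31), (156, 13), (157, 157), (158, 79), (159, 53), (160, 2), (161, 23), (162, 3), (163, 163), (164, 41), (165, 11), (166, 83), (167, 167), (168, 0), (169, 13), (170, 17), (171, 19), (172, 43), (173, 173), (174, 29), (175, 7), (176, 11), (177, 59), (178, 89), (179, 179), (180, 0), (181, 181), (182, 7), (183, 61), (184, 23), (185, 37), (186, 31), (187, 17), (188, 47), (189, 7), (190, 19), (191, 191), (192, 2), (193, 193), (194, 97), (195, 13), (196, 7), (197, 197), (198, 11), (199, 199), (200, 5), (201, 67), (202, 101), (203, 29), (204, 17), (205, 41), (206, 103), (207,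 23), (208, 13), (209, 19), (210, 2), (211, 211), (212, 53), (213, 71), (214, 107), (215, 43), (216, 3), (217, 31), (218, 109), (219, 73), (220, 11), (221, 17), (222, 37), (223, 223), (224, 2), (225, 5), (226, 113), (227, 227), (228, 19), (229, 229), (230, 23), (231, 11), (232, 29), (233, 233), (234, 13), (235, 47), (236, 59), (237, 79), (238, 17), (239, 239), (240, 0), (241, 241), (242, 11), (243, 3), (244, 61), (245, 7), (246, 41), (247, 19), (248, 31), (249, 83), (250, 5), (251, 251), (252, 7), (253, 23), (254, 127), (255, 17), (256, 2), (257, 257), (258, 43), (259, 37), (260, 13), (261, 29), (262, 131), (263, 263), (264, 0), (265, 53), (266, 19), (267, 89), (268, 67), (269, 269), (270, 5), (271, 271), (272, 17), (273, 13), (274, 137), (275, 11), (276, 23), (277, 277), (278, 139), (279, 31), (280, 7), (281, 281), (282, 47), (283, 283), (284, 71), (285, 19), (286, 13), (287, 41), (288, 0), (289, 17), (290, 29), (291, 97), (292, 73), (293, 293), (294, 7), (295, 59), (296, 37), (297, 11), (298, 149), (299, 23)]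

theorem chunk0_fst : chunk0.map Prod.fst = List.range' 2 298 := by
  decide +kernel

theorem chunk0_all : chunk0.all rowB = true := by
  decide +kernel

/-- Rows `300 ≤ n < 600`. -/
def chunk1 : List (ℕ × ℕ) := [(300, 5), (301, 43), (302, 151), (303, 101), (304, 19), (305, 61), (306, 17), (307, 307), (308, 11), (309, 103), (310, 31), (311, 311), (312, 13), (313, 313), (314, 157), (315, 5), (316, 79), (317, 317), (318, 53), (319, 29), (320, 2), (321, 107), (322, 23), (323, 19), (324, 3), (325, 13), (326, 163), (327, 109), (328, 41), (329, 47), (330, 11), (331, 331), (332, 83), (333, 37), (334, 167), (335, 67), (336, 0), (337, 337), (338, 13), (339, 113), (340, 17), (341, 31), (342, 19), (343, 7), (344, 43), (345, 23), (346, 173), (347, 347), (348, 29), (349, 349), (350, 5), (351, 13), (352, 11), (353, 353), (354, 59), (355, 71), (356, 89), (357, 17), (358, 179), (359, 359), (360, 0), (361, 19), (362, 181), (363, 11), (364, 7), (365, 73), (366, 61), (367, 367), (368, 23), (369, 41), (370, 37), (371, 53), (372, 31), (373, 373), (374, 17), (375, 5), (376, 47), (377, 29),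 (378, 7), (379, 379), (380, 19), (381, 127), (382, 191), (383, 383), (384, 2), (385, 11), (386, 193), (387, 43), (388, 97), (389, 389), (390, 13), (391, 23), (392, 7), (393, 131), (394, 197), (395, 79), (396, 11), (397, 397), (398, 199), (399, 19), (400, 0), (401, 401), (402, 67), (403, 31), (404, 101), (405, 3), (406, 29), (407, 37), (408, 17), (409, 409), (410, 41), (411, 137), (412, 103), (413, 59), (414, 23), (415, 83), (416, 13), (417, 139), (418, 19), (419, 419), (420, 0), (421, 421), (422, 211), (423, 47), (424, 53), (425, 17), (426, 71), (427, 61), (428, 107), (429, 13), (430, 43), (431, 431), (432, 0), (433, 433), (434, 31), (435, 29), (436, 109), (437, 23), (438, 73), (439, 439), (440, 11), (441, 7), (442, 17), (443, 443), (444, 37), (445, 89), (446, 223), (447, 149), (448, 2), (449, 449), (450, 5), (451, 41), (452, 113), (453, 151), (454, 227), (455, 13), (456, 19), (457, 457), (458, 229), (459, 17), (460, 23), (461, 461), (462, 11), (463, 463), (464, 29), (465, 31), (466, 233), (467, 467), (468, 13), (469, 67), (470, 47), (471, 157), (472, 59), (473, 43),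 (474, 79), (475, 19), (476, 17), (477, 53), (478, 239), (479, 479), (480, 0), (481, 37), (482, 241), (483, 23), (484, 11), (485, 97), (486, 3), (487, 487), (488, 61), (489, 163), (490, 7), (491, 491), (492, 41), (493, 29), (494, 19), (495, 11), (496, 31), (497, 71), (498, 83), (499, 499), (500, 5), (501, 167), (502, 251), (503, 503), (504, 0), (505, 101), (506, 23), (507, 13), (508, 127), (509, 509), (510, 17), (511, 73), (512, 2), (513, 19), (514, 257), (515, 103), (516, 43), (517, 47), (518, 37), (519, 173), (520, 13), (521, 521), (522, 29), (523, 523), (524, 131), (525, 7), (526, 263), (527, 31), (528, 0), (529, 23), (530, 53), (531, 59), (532, 19), (533, 41), (534, 89), (535, 107), (536, 67), (537, 179), (538, 269), (539, 11), (540, 5), (541, 541), (542, 271), (543, 181), (544, 17), (545, 109), (546, 7), (547, 547), (548, 137), (549, 61), (550, 11), (551, 29), (552, 23), (553, 79), (554, 277), (555, 37), (556, 139), (557, 557), (558, 31), (559, 43), (560, 0), (561, 17), (562, 281), (563, 563), (564, 47), (565, 113), (566, 283), (567, 7), (568, 71), (569, 569), (570,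 19), (571, 571), (572, 13), (573, 191), (574, 41), (575, 23), (576, 0), (577, 577), (578, 17), (579, 193), (580, 29), (581, 83), (582, 97), (583, 53), (584, 73), (585, 13), (586, 293), (587, 587), (588, 7), (589, 31), (590, 59), (591, 197), (592, 37), (593, 593), (594, 11), (595, 5), (596, 149), (597, 199), (598, 23), (599, 599)]

theorem chunk1_fst : chunk1.map Prod.fst = List.range' 300 300 := by
  decide +kernel

theorem chunk1_all : chunk1.all rowB = true := by
  decide +kernel

/-- Rows `600 ≤ n < 850`. -/
def chunk2 : List (ℕ × ℕ) := [(600, 5), (601, 601), (602, 43), (603, 67), (604, 151), (605, 11), (606, 101), (607, 607), (608, 19), (609, 29), (610, 61), (611, 47), (612, 0), (613, 613), (614, 307), (615, 41), (616, 11), (617, 617), (618, 103), (619, 619), (620, 31), (621, 23), (622, 311), (623, 89), (624, 13), (625, 5), (626, 313), (627, 19), (628, 157), (629, 37), (630, 2), (631, 631), (632, 79), (633, 211), (634, 317), (635, 127), (636, 53), (637, 13), (638, 29), (639, 71), (640, 2), (641, 641), (642, 107), (643, 643), (644, 23), (645, 43), (646, 19), (647,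 647), (648, 3), (649, 59), (650, 13), (651, 31), (652, 163), (653, 653), (654, 109), (655, 131), (656, 41), (657, 73), (658, 47), (659, 659), (660, 0), (661, 661), (662, 331), (663, 17), (664, 83), (665, 19), (666, 37), (667, 29), (668, 167), (669, 223), (670, 67), (671, 61), (672, 0), (673, 673), (674, 337), (675, 5), (676, 13), (677, 677), (678, 113), (679, 97), (680, 17), (681, 227), (682, 31), (683, 683), (684, 19), (685, 137), (686, 7), (687, 229), (688, 43), (689, 53), (690, 23), (691, 691), (692, 173), (693, 11), (694, 347), (695, 139), (696, 29), (697, 41), (698, 349), (699, 233), (700, 5), (701, 701), (702, 2), (703, 37), (704, 11), (705, 47), (706, 353), (707, 101), (708, 59), (709, 709), (710, 71), (711, 79), (712, 89), (713, 31), (714, 17), (715, 13), (716, 179), (717, 239), (718, 359), (719, 719), (720, 0), (721, 103), (722, 19), (723, 241), (724, 181), (725, 29), (726, 11), (727, 727), (728, 7), (729, 3), (730, 73), (731, 43), (732, 61), (733, 733), (734, 367), (735, 5), (736, 23), (737, 67), (738, 41), (739, 739), (740, 37), (741, 13), (742, 53), (743,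 743), (744, 31), (745, 149), (746, 373), (747, 83), (748, 17), (749, 107), (750, 5), (751, 751), (752, 47), (753, 251), (754, 29), (755, 151), (756, 0), (757, 757), (758, 379), (759, 23), (760, 0), (761, 761), (762, 127), (763, 109), (764, 191), (765, 17), (766, 383), (767, 59), (768, 2), (769, 769), (770, 11), (771, 257), (772, 193), (773, 773), (774, 43), (775, 31), (776, 97), (777, 37), (778, 389), (779, 41), (780, 13), (781, 71), (782, 23), (783, 29), (784, 7), (785, 157), (786, 131), (787, 787), (788, 197), (789, 263), (790, 79), (791, 113), (792, 0), (793, 61), (794, 397), (795, 53), (796, 199), (797, 797), (798, 19), (799, 47), (800, 0), (801, 89), (802, 401), (803, 73), (804, 67), (805, 23), (806, 31), (807, 269), (808, 101), (809, 809), (810, 2), (811, 811), (812, 29), (813, 271), (814, 37), (815, 163), (816, 17), (817, 43), (818, 409), (819, 13), (820, 41), (821, 821), (822, 137), (823, 823), (824, 103), (825, 11), (826, 59), (827, 827), (828, 23), (829, 829), (830, 83), (831, 277), (832, 13), (833, 17), (834, 139), (835, 167), (836, 19), (837, 31), (838, 419),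 (839, 839), (840, 0), (841, 29), (842, 421), (843, 281), (844, 211), (845, 13), (846, 47), (847, 11), (848, 53), (849, 283)]

theorem chunk2_fst : chunk2.map Prod.fst = List.range' 600 250 := by
  decide +kernel

theorem chunk2_all : chunk2.all rowB = true := by
  decide +kernel

/-- Rows `850 ≤ n < 1093`. -/
def chunk3 : List (ℕ × ℕ) := [(850, 17), (851, 37), (852, 71), (853, 853), (854, 61), (855, 19), (856, 107), (857, 857), (858, 13), (859, 859), (860, 43), (861, 41), (862, 431), (863, 863), (864, 0), (865, 173), (866, 433), (867, 17), (868, 31), (869, 79), (870, 5), (871, 67), (872, 109), (873, 97), (874, 23), (875, 7), (876, 73), (877, 877), (878, 439), (879, 293), (880, 11), (881, 881), (882, 7), (883, 883), (884, 13), (885, 59), (886, 443), (887, 887), (888, 37), (889, 127), (890, 89), (891, 11), (892, 223), (893, 47), (894, 149), (895, 179), (896, 2), (897, 23), (898, 449), (899, 31), (900, 0), (901, 53), (902, 41), (903, 43), (904, 113), (905, 181), (906, 151), (907, 907), (908, 227), (909, 101), (910, 7), (911, 911), (912, 19), (913, 83), (914, 457), (915,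 61), (916, 229), (917, 131), (918, 17), (919, 919), (920, 23), (921, 307), (922, 461), (923, 71), (924, 11), (925, 37), (926, 463), (927, 103), (928, 29), (929, 929), (930, 31), (931, 19), (932, 233), (933, 311), (934, 467), (935, 17), (936, 13), (937, 937), (938, 67), (939, 313), (940, 47), (941, 941), (942, 157), (943, 41), (944, 59), (945, 3), (946, 43), (947, 947), (948, 79), (949, 73), (950, 19), (951, 317), (952, 17), (953, 953), (954, 53), (955, 191), (956, 239), (957, 29), (958, 479), (959, 137), (960, 0), (961, 31), (962, 37), (963, 107), (964, 241), (965, 193), (966, 23), (967, 967), (968, 11), (969, 19), (970, 97), (971, 971), (972, 3), (973, 139), (974, 487), (975, 13), (976, 61), (977, 977), (978, 163), (979, 89), (980, 7), (981, 109), (982, 491), (983, 983), (984, 41), (985, 197), (986, 29), (987, 47), (988, 19), (989, 43), (990, 2), (991, 991), (992, 31), (993, 331), (994, 71), (995, 199), (996, 83), (997, 997), (998, 499), (999, 37), (1000, 5), (1001, 13), (1002, 167), (1003, 59), (1004, 251), (1005, 67), (1006, 503), (1007, 53), (1008, 0), (1009, 1009),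 (1010, 101), (1011, 337), (1012, 23), (1013, 1013), (1014, 13), (1015, 29), (1016, 127), (1017, 113), (1018, 509), (1019, 1019), (1020, 17), (1021, 1021), (1022, 73), (1023, 31), (1024, 2), (1025, 41), (1026, 19), (1027, 79), (1028, 257), (1029, 7), (1030, 103), (1031, 1031), (1032, 43), (1033, 1033), (1034, 47), (1035, 23), (1036, 37), (1037, 61), (1038, 173), (1039, 1039), (1040, 0), (1041, 347), (1042, 521), (1043, 149), (1044, 29), (1045, 19), (1046, 523), (1047, 349), (1048, 131), (1049, 1049), (1050, 2), (1051, 1051), (1052, 263), (1053, 0), (1054, 31), (1055, 211), (1056, 0), (1057, 151), (1058, 23), (1059, 353), (1060, 53), (1061, 1061), (1062, 59), (1063, 1063), (1064, 19), (1065, 71), (1066, 41), (1067, 97), (1068, 89), (1069, 1069), (1070, 107), (1071, 17), (1072, 67), (1073, 37), (1074, 179), (1075, 43), (1076, 269), (1077, 359), (1078, 11), (1079, 83), (1080, 0), (1081, 47), (1082, 541), (1083, 19), (1084, 271), (1085, 31), (1086, 181), (1087, 1087), (1088, 17), (1089, 11), (1090, 109), (1091, 1091), (1092, 0)]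

theorem chunk3_fst : chunk3.map Prod.fst = List.range' 850 243 := by
  decide +kernel

theorem chunk3_all : chunk3.all rowB = true := by
  decide +kernel

/-- The table. -/
theorem small_table (n : ℕ) (h2 : 2 ≤ n) (h : n ≤ 1092) :
    (∃ p, SylowKills n p) ∨ (∃ p, BurnsideKills n p) ∨ n ∈ special := by
  rcases Nat.lt_or_ge n 300 with hc0 | hc0
  · exact chunk_sound chunk0 2 298 chunk0_fst chunk0_all n (by omega) (by omega)
  rcases Nat.lt_or_ge n 600 with hc1 | hc1
  · exact chunk_sound chunk1 300 300 chunk1_fst chunk1_all n (by omega) (by omega)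
  rcases Nat.lt_or_ge n 850 with hc2 | hc2
  · exact chunk_sound chunk2 600 250 chunk2_fst chunk2_all n (by omega) (by omega)
  exact chunk_sound chunk3 850 243 chunk3_fst chunk3_all n (by omega) (by omega)

end Cfsg.Agent.H21.Small
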