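import Mathlib
import Cfsg.Prelude.Def_Blocks
import Cfsg.Agent.H81.DefectCount2
import Cfsg.Agent.H79.NormalSupport
import Cfsg.Agent.H79.NormalBlocks
import Cfsg.Agent.S0963

set_option autoImplicit false
set_option linter.style.haveILetI false
set_option linter.unusedSectionVars false

/-!
# helper21: counting the blocks of a group with a normal Sylow `p`-subgroup

* `card_blocks_le`: at most as many blocks as `p`-regular classes centralizing a normal
  `p`-subgroup.
* `card_classes_le`: at least as many blocks as classes inside a normal `p'`-subgroup.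
-/

namespace Cfsg.Agent.H21.SylowBlocks

open Cfsg
open scoped ComplexConjugate

section

variable {N : Type*} [Group N] [Finite N] {p : ℕ} [Fact p.Prime] {M : Ideal AlgInt}

/-- Upper bound: the number of blocks is at most the number of `p`-regular classes centralizing
a normal `p`-subgroup. -/
theorem card_blocks_le (hM : IsPModular p M) (Q : Subgroup N) [Q.Normal] (hQ : IsPGroup p Q) :
    Nat.card {b : Set (IrrCharacter N) // IsPBlock M b} ≤
      Nat.card {C : ConjClasses N // ∃ g : N, ConjClasses.mk g = C ∧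
        (¬ p ∣ orderOf g ∧ g ∈ Subgroup.centralizer (Q : Set N))} := by
  classical
  haveI : Fintype N := Fintype.ofFinite N
  have hMp := Cfsg.Agent.H20.isPrime_of_isPModular hM
  have h := Cfsg.Agent.H81.card_blocks_le_card_classes hM (fun _ : Set (IrrCharacter N) => True)
    (fun g : N => ¬ p ∣ orderOf g ∧ g ∈ Subgroup.centralizer (Q : Set N)) ?_ ?_
  · refine le_trans (le_of_eq ?_) h
    exact Nat.card_congr (Equiv.subtypeEquivRight (fun b => by simp))
  · rintro h x ⟨h1, h2⟩
    refine ⟨?_, ?_⟩
    · rw [Cfsg.Agent.H81.orderOf_conj_eq]; exact h1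
    · have hn : (Subgroup.centralizer (Q : Set N)).Normal := inferInstance
      exact hn.conj_mem h h2 x
  · intro χ₀ ψ _ _ h hh
    by_cases hs : p ∣ orderOf h
    · exact Cfsg.Agent.H81.blockCoeff_mul_centralChar_mem_of_singular hM χ₀ ψ h hs
    · have hc : h ∉ Subgroup.centralizer (Q : Set N) := fun hc => hh ⟨hs, hc⟩
      rw [Cfsg.Agent.H79.blockCoeff_eq_zero_of_not_mem_centralizer hM Q hQ χ₀ h hc, zero_mul]
      exact Cfsg.Agent.H20.memLocalIdeal_zero hMp

/-- Irreducible characters in the same block have equal central characters on a normal subgroup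
of order prime to `p`. -/
theorem centralChar_eq_of_sameBlock [Fintype N] (hM : IsPModular p M) (K : Subgroup N) [K.Normal]
    (hK : ¬ p ∣ Nat.card K) (χ ψ : IrrCharacter N) (hs : SameBlock M (χ : N → ℂ) (ψ : N → ℂ))
    (k : N) (hk : k ∈ K) : centralChar (χ : N → ℂ) k = centralChar (ψ : N → ℂ) k := by
  classical
  haveI : Fintype K := Fintype.ofFinite K
  obtain ⟨θ, hθ⟩ := Cfsg.Agent.H79.exists_constituent_res K χ
  have hθ' := Cfsg.Agent.H79.over_of_sameBlock K hM hK χ ψ hs θ hθ
  have e1 := (Cfsg.Agent.S0963.result K χ θ).mp hθ ⟨k, hk⟩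
  have e2 := (Cfsg.Agent.S0963.result K ψ θ).mp hθ' ⟨k, hk⟩
  exact e1.trans e2.symm

/-- Lower bound: the number of blocks is at least the number of classes (with a
conjugation-invariant property) contained in a normal subgroup of order prime to `p`. -/
theorem card_classes_le (hM : IsPModular p M) (K : Subgroup N) [K.Normal]
    (hK : ¬ p ∣ Nat.card K) (PC : N → Prop) (hPC : ∀ h x : N, PC h → PC (x * h * x⁻¹))
    (hPK : ∀ g : N, PC g → g ∈ K) :
    Nat.card {C : ConjClasses N // ∃ g : N, ConjClasses.mk g = C ∧ PC g} ≤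
      Nat.card {b : Set (IrrCharacter N) // IsPBlock M b} := by
  classical
  haveI : Fintype N := Fintype.ofFinite N
  have hMp := Cfsg.Agent.H20.isPrime_of_isPModular hM
  haveI : Finite (IrrCharacter N) := Cfsg.Agent.H4.finite_irr N
  haveI : Fintype {C : ConjClasses N // ∃ g : N, ConjClasses.mk g = C ∧ PC g} := Fintype.ofFinite _
  haveI : Fintype {b : Set (IrrCharacter N) // IsPBlock M b} := Fintype.ofFinite _
  rw [Nat.card_eq_fintype_card, Nat.card_eq_fintype_card]
  choose rep hrep using (fun b : {b : Set (IrrCharacter N) // IsPBlock M b} => b.2)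
  choose g hg using (fun C : {C : ConjClasses N // ∃ g : N, ConjClasses.mk g = C ∧ PC g} => C.2)
  -- the linear map
  let L : ({C : ConjClasses N // ∃ g : N, ConjClasses.mk g = C ∧ PC g} → ℂ) →ₗ[ℂ]
      ({b : Set (IrrCharacter N) // IsPBlock M b} → ℂ) :=
    { toFun := fun x b => ∑ C, x C * conj (centralChar ((rep b : IrrCharacter N) : N → ℂ) (g C))
      map_add' := by
        intro x y
        funext b
        simp only [Pi.add_apply, add_mul, Finset.sum_add_distrib]
      map_smul' := by
        intro c x
        funext b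
        simp only [Pi.smul_apply, smul_eq_mul, RingHom.id_apply, Finset.mul_sum, mul_assoc] }
  have hinj : Function.Injective L := by
    rw [← LinearMap.ker_eq_bot, LinearMap.ker_eq_bot']
    intro x hx
    -- the class function
    set f : N → ℂ := fun n => ∑ C : {C : ConjClasses N // ∃ g : N, ConjClasses.mk g = C ∧ PC g},
      if ConjClasses.mk n = C.1 then x C else 0 with hf
    have hfconj : ∀ h y : N, f (y * h * y⁻¹) = f h := by
      intro h y
      have : ConjClasses.mk (y * h * y⁻¹) = ConjClasses.mk h := by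
        rw [ConjClasses.mk_eq_mk_iff_isConj]
        exact (isConj_iff.mpr ⟨y, rfl⟩).symm
      simp only [hf, this]
    have hfcl : IsClassFunction N f := fun h y => hfconj h y
    have hfg : ∀ C, f (g C) = x C := by
      intro C
      simp only [hf]
      rw [Finset.sum_eq_single C]
      · rw [if_pos (hg C).1]
      · intro C' _ hne
        rw [if_neg]
        intro h
        exact hne (Subtype.ext ((hg C).1 ▸ h).symm)
      · intro h; exact absurd (Finset.mem_univ _) h
    have hfzero : ∀ n : N, ¬ PC n → f n = 0 := by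
      intro n hn
      simp only [hf]
      apply Finset.sum_eq_zero
      intro C _
      rw [if_neg]
      intro h
      apply hn
      have h2 : ConjClasses.mk n = ConjClasses.mk (g C) := h.trans (hg C).1.symm
      rw [ConjClasses.mk_eq_mk_iff_isConj] at h2
      obtain ⟨y, hy⟩ := isConj_iff.mp h2.symm
      rw [← hy]
      exact hPC _ y (hg C).2
    have hinner : ∀ χ : IrrCharacter N, classInner f χ.1 = 0 := by
      intro χ
      unfold classInner
      have h1 : ∑ n : N, f n * conj ((χ : N → ℂ) n) =
          ∑ n ∈ Finset.univ.filter PC, f n * conj ((χ : N → ℂ) n) := by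
        rw [Finset.sum_filter]
        apply Finset.sum_congr rfl
        intro n _
        by_cases hn : PC n
        · rw [if_pos hn]
        · rw [if_neg hn, hfzero n hn, zero_mul]
      rw [h1, Cfsg.Agent.H81.sum_filter_eq_sum_classes PC hPC
        (fun n => f n * conj ((χ : N → ℂ) n))
        (fun h y => by
          show f (y * h * y⁻¹) * conj ((χ : N → ℂ) (y * h * y⁻¹)) = f h * conj ((χ : N → ℂ) h)
          rw [hfconj, Cfsg.Agent.H82.irr_conj]) g (fun C => (hg C).1)]
      -- the block of χ
      have hb : IsPBlock M (blockOf M (χ : N → ℂ)) := ⟨χ, rfl⟩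
      have hχrep : SameBlock M ((rep ⟨_, hb⟩ : IrrCharacter N) : N → ℂ) (χ : N → ℂ) := by
        have h2 : χ ∈ blockOf M ((rep ⟨_, hb⟩ : IrrCharacter N) : N → ℂ) := by
          rw [← hrep ⟨_, hb⟩]
          exact Cfsg.Agent.H80.mem_blockOf_self hMp χ
        exact h2
      have hval := congrFun hx ⟨_, hb⟩
      simp only [L, LinearMap.coe_mk, AddHom.coe_mk, Pi.zero_apply] at hval
      have h2 : ∑ C : {C : ConjClasses N // ∃ g : N, ConjClasses.mk g = C ∧ PC g},
          ((Subgroup.centralizer ({g C} : Set N)).index : ℂ) * (f (g C) * conj ((χ : N → ℂ) (g C)))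
          = conj ((χ : N → ℂ) 1) * ∑ C, x C *
            conj (centralChar ((rep ⟨_, hb⟩ : IrrCharacter N) : N → ℂ) (g C)) := by
        rw [Finset.mul_sum]
        apply Finset.sum_congr rfl
        intro C _
        rw [centralChar_eq_of_sameBlock hM K hK _ χ hχrep (g C) (hPK _ (hg C).2), hfg]
        unfold centralChar
        have h1 : (χ : N → ℂ) 1 ≠ 0 := Cfsg.Agent.H82.irr_one_ne_zero χ
        have h1' : conj ((χ : N → ℂ) 1) ≠ 0 := by
          intro h
          exact h1 ((map_eq_zero _).mp h)
        rw [map_div₀, map_mul, Complex.conj_natCast]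
        field_simp
      rw [h2, hval, mul_zero, mul_zero]
    have hf0 := Cfsg.Agent.H4.eq_zero_of_inner_irr_eq_zero hfcl hinner
    funext C
    rw [← hfg C, hf0]
    rfl
  have hrank := LinearMap.finrank_le_finrank_of_injective hinj
  rw [Module.finrank_fintype_fun_eq_card, Module.finrank_fintype_fun_eq_card] at hrank
  exact hrank

end

section Regular

variable {N : Type*} [Group N] [Finite N] {p : ℕ} [Fact p.Prime]

/-- The product of two `p`-regular elements centralizing a normal subgroup `Q` of index prime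
to `p` is `p`-regular. -/
theorem not_dvd_orderOf_mul (Q : Subgroup N) [Q.Normal] (hQ : ¬ p ∣ Q.index) (x y : N)
    (hx : x ∈ Subgroup.centralizer (Q : Set N)) (hy : y ∈ Subgroup.centralizer (Q : Set N))
    (hxp : ¬ p ∣ orderOf x) (hyp : ¬ p ∣ orderOf y) : ¬ p ∣ orderOf (x * y) := by
  classical
  have hp : p.Prime := Fact.out
  set Cg : Subgroup N := Subgroup.centralizer (Q : Set N) with hCg
  -- the centre of `Cg` contains `Q ∩ Cg`
  have hle : Q.subgroupOf Cg ≤ Subgroup.center Cg := by
    intro q hq
    rw [Subgroup.mem_center_iff]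
    intro c
    have hc : (c : N) ∈ Subgroup.centralizer (Q : Set N) := c.2
    rw [Subgroup.mem_centralizer_iff] at hc
    have := hc (q : N) (Subgroup.mem_subgroupOf.mp hq)
    apply Subtype.ext
    rw [Subgroup.coe_mul, Subgroup.coe_mul]
    exact this.symm
  have hn : ¬ p ∣ (Subgroup.center Cg).index := by
    intro h
    apply hQ
    have h1 : (Subgroup.center Cg).index ∣ (Q.subgroupOf Cg).index := Subgroup.index_dvd_of_le hle
    have h2 : (Q.subgroupOf Cg).index ∣ Q.index := Subgroup.relIndex_dvd_index_of_normal Q Cg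
    exact dvd_trans h (dvd_trans h1 h2)
  set n := (Subgroup.center Cg).index with hn_def
  set x' : Cg := ⟨x, hx⟩ with hx'
  set y' : Cg := ⟨y, hy⟩ with hy'
  have hpow : (x' * y') ^ n = x' ^ n * y' ^ n := by
    have h1 := MonoidHom.transferCenterPow_apply (G := Cg) (x' * y')
    have h2 := MonoidHom.transferCenterPow_apply (G := Cg) x'
    have h3 := MonoidHom.transferCenterPow_apply (G := Cg) y'
    rw [← h1, map_mul, Subgroup.coe_mul, h2, h3]
  have hcomm : Commute (x' ^ n) (y' ^ n) := by
    have h2 := MonoidHom.transferCenterPow_apply (G := Cg) x'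
    have hmem : x' ^ n ∈ Subgroup.center Cg := by
      rw [← h2]; exact (MonoidHom.transferCenterPow Cg x').2
    exact (Subgroup.mem_center_iff.mp hmem (y' ^ n)).symm
  have hx'p : ¬ p ∣ orderOf x' := by rw [← Subgroup.orderOf_coe]; exact hxp
  have hy'p : ¬ p ∣ orderOf y' := by rw [← Subgroup.orderOf_coe]; exact hyp
  have h4 : ¬ p ∣ orderOf ((x' * y') ^ n) := by
    rw [hpow]
    intro h
    have h5 := dvd_trans h hcomm.orderOf_mul_dvd_lcm
    have h6 := dvd_trans h5 (Nat.lcm_dvd_mul _ _)
    rcases (Nat.Prime.dvd_mul hp).mp h6 with h7 | h7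
    · exact hx'p (dvd_trans h7 (orderOf_pow_dvd n))
    · exact hy'p (dvd_trans h7 (orderOf_pow_dvd n))
  have h5 : ¬ p ∣ orderOf (x' * y') := by
    intro h
    apply h4
    rw [orderOf_pow]
    have h6 : orderOf (x' * y') = orderOf (x' * y') / Nat.gcd (orderOf (x' * y')) n *
        Nat.gcd (orderOf (x' * y')) n := (Nat.div_mul_cancel (Nat.gcd_dvd_left _ _)).symm
    rw [h6] at h
    rcases (Nat.Prime.dvd_mul hp).mp h with h7 | h7
    · exact h7
    · exact absurd (dvd_trans h7 (Nat.gcd_dvd_right _ _)) hn
  have h6 : orderOf (x * y) = orderOf (x' * y') := by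
    rw [← Subgroup.orderOf_coe]
    rfl
  rw [h6]
  exact h5

/-- The `p`-regular elements centralizing a normal subgroup `Q` of index prime to `p` lie in a
normal subgroup of order prime to `p`. -/
theorem exists_regular_subgroup (Q : Subgroup N) [Q.Normal] (hQ : ¬ p ∣ Q.index) :
    ∃ K : Subgroup N, K.Normal ∧ ¬ p ∣ Nat.card K ∧
      ∀ g : N, (¬ p ∣ orderOf g ∧ g ∈ Subgroup.centralizer (Q : Set N)) → g ∈ K := by
  classical
  have hp : p.Prime := Fact.out
  let K : Subgroup N :=
    { carrier := {g | ¬ p ∣ orderOf g ∧ g ∈ Subgroup.centralizer (Q : Set N)}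
      mul_mem' := by
        rintro a b ⟨ha1, ha2⟩ ⟨hb1, hb2⟩
        exact ⟨not_dvd_orderOf_mul Q hQ a b ha2 hb2 ha1 hb1, Subgroup.mul_mem _ ha2 hb2⟩
      one_mem' := by
        refine ⟨?_, Subgroup.one_mem _⟩
        rw [orderOf_one]
        exact hp.one_lt.ne' ∘ Nat.dvd_one.mp
      inv_mem' := by
        rintro a ⟨ha1, ha2⟩
        exact ⟨by rw [orderOf_inv]; exact ha1, Subgroup.inv_mem _ ha2⟩ }
  refine ⟨K, ?_, ?_, fun g hg => hg⟩
  · constructor
    rintro n ⟨hn1, hn2⟩ g
    refine ⟨?_, ?_⟩
    · rw [Cfsg.Agent.H81.orderOf_conj_eq]; exact hn1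
    · have hnorm : (Subgroup.centralizer (Q : Set N)).Normal := inferInstance
      exact hnorm.conj_mem n hn2 g
  · intro h
    haveI : Fintype K := Fintype.ofFinite K
    rw [Nat.card_eq_fintype_card] at h
    obtain ⟨k, hk⟩ := exists_prime_orderOf_dvd_card p h
    have hk2 : ¬ p ∣ orderOf (k : N) := k.2.1
    rw [Subgroup.orderOf_coe, hk] at hk2
    exact hk2 dvd_rfl

end Regular

end Cfsg.Agent.H21.SylowBlocks
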