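import Mathlib
import Cfsg.Agent.H70.Frob
import Cfsg.Agent.H61.TransLin
import Cfsg.Agent.H21.OrderCount

set_option autoImplicit false
set_option linter.unusedSectionVars false
set_option linter.style.haveILetI false
set_option linter.unusedVariables false

/-!
Groups in which the numbers of elements of each order take only the values `1` and `n`
(statement S3995).  Tools: Frobenius' theorem (`H70.frobenius_dvd`) and elementary counting.
-/

namespace Cfsg.Agent.H21.TwoCounts

open Finset

/-- number of elements of order `m`. -/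
noncomputable def cnt (G : Type*) [Group G] (m : ℕ) : ℕ := Nat.card {g : G // orderOf g = m}

section basic

variable {G : Type*} [Group G] [Finite G]

theorem cnt_one : cnt G 1 = 1 :=
  Nat.card_eq_one_iff_exists.2 ⟨⟨1, orderOf_one⟩, fun ⟨g, hg⟩ => Subtype.ext (orderOf_eq_one_iff.1 hg)⟩

theorem cnt_pos (g : G) : 0 < cnt G (orderOf g) := by
  haveI : Nonempty {x : G // orderOf x = orderOf g} := ⟨⟨g, rfl⟩⟩
  exact Nat.card_pos

theorem cnt_eq_zero (m : ℕ) (hm : ∀ g : G, orderOf g ≠ m) : cnt G m = 0 := by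
  haveI : IsEmpty {g : G // orderOf g = m} := ⟨fun ⟨g, hg⟩ => hm g hg⟩
  exact Nat.card_of_isEmpty

theorem card_pow_eq_one (d : ℕ) (hd : d ≠ 0) :
    Nat.card {g : G // g ^ d = 1} = ∑ m ∈ d.divisors, cnt G m := by
  classical
  haveI := Fintype.ofFinite G
  have key := sum_card_orderOf_eq_card_pow_eq_one (G := G) hd
  have h1 : Nat.card {g : G // g ^ d = 1} = #{x : G | x ^ d = 1} := by
    rw [Nat.card_eq_fintype_card, Fintype.card_subtype]
  have h2 : ∀ m, cnt G m = #{x : G | orderOf x = m} := by
    intro m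
    rw [cnt, Nat.card_eq_fintype_card, Fintype.card_subtype]
  rw [h1, ← key]
  exact Finset.sum_congr rfl fun m _ => (h2 m).symm

theorem frob (d : ℕ) (hd : d ∣ Nat.card G) : d ∣ ∑ m ∈ d.divisors, cnt G m := by
  have hd0 : d ≠ 0 := by
    rintro rfl
    exact Nat.card_pos.ne' (Nat.eq_zero_of_zero_dvd hd)
  rw [← card_pow_eq_one d hd0]
  exact Cfsg.Agent.H70.frobenius_dvd d hd

theorem cnt_even (m : ℕ) (hm : 3 ≤ m) : 2 ∣ cnt G m := by
  classical
  haveI := Fintype.ofFinite G
  rw [cnt, Nat.card_eq_fintype_card, Fintype.card_subtype]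
  have h0 : ∑ _x ∈ (Finset.univ.filter fun g : G => orderOf g = m), (1 : ZMod 2) = 0 := by
    refine Finset.sum_involution (fun g _ => g⁻¹) ?_ ?_ ?_ ?_
    · intro g _
      decide
    · intro g hg _ hgg
      have hg' : orderOf g = m := (Finset.mem_filter.1 hg).2
      have h2 : g ^ 2 = 1 := by
        rw [pow_two]
        nth_rewrite 1 [← hgg]
        exact inv_mul_cancel g
      have := Nat.le_of_dvd (by norm_num) (orderOf_dvd_of_pow_eq_one h2)
      omega
    · intro g hg
      have hg' : orderOf g = m := (Finset.mem_filter.1 hg).2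
      exact Finset.mem_filter.2 ⟨Finset.mem_univ _, by rw [orderOf_inv, hg']⟩
    · intro g _
      exact inv_inv g
  rw [Finset.sum_const, nsmul_eq_mul, mul_one] at h0
  exact (ZMod.natCast_eq_zero_iff _ 2).1 h0

theorem sum_divisors_four (f : ℕ → ℕ) : ∑ m ∈ (4 : ℕ).divisors, f m = f 1 + f 2 + f 4 := by
  have : (4 : ℕ).divisors = {1, 2, 4} := by decide
  rw [this]
  simp [Finset.sum_insert]
  ring

theorem sum_divisors_eight (f : ℕ → ℕ) :
    ∑ m ∈ (8 : ℕ).divisors, f m = f 1 + f 2 + f 4 + f 8 := by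
  have : (8 : ℕ).divisors = {1, 2, 4, 8} := by decide
  rw [this]
  simp [Finset.sum_insert]
  ring

theorem sum_divisors_pq (f : ℕ → ℕ) (p q : ℕ) (hp : p.Prime) (hq : q.Prime) (hpq : p ≠ q) :
    ∑ m ∈ (p * q).divisors, f m = f 1 + f p + f q + f (p * q) := by
  have hco : Nat.Coprime p q := (Nat.coprime_primes hp hq).2 hpq
  have h1 : (p * q).divisors = ({1, p, q, p * q} : Finset ℕ) := by
    ext d
    simp only [Nat.mem_divisors, Finset.mem_insert, Finset.mem_singleton]
    constructor
    · rintro ⟨hd, -⟩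
      obtain ⟨a, b, ha, hb, rfl⟩ := (Nat.dvd_mul).1 hd
      rcases (Nat.dvd_prime hp).1 ha with rfl | rfl <;> rcases (Nat.dvd_prime hq).1 hb with rfl | rfl
      · left; rfl
      · right; right; left; simp
      · right; left; simp
      · right; right; right; rfl
    · rintro (rfl | rfl | rfl | rfl)
      · exact ⟨one_dvd _, Nat.mul_ne_zero hp.ne_zero hq.ne_zero⟩
      · exact ⟨Dvd.intro _ rfl, Nat.mul_ne_zero hp.ne_zero hq.ne_zero⟩
      · exact ⟨Dvd.intro_left _ rfl, Nat.mul_ne_zero hp.ne_zero hq.ne_zero⟩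
      · exact ⟨dvd_rfl, Nat.mul_ne_zero hp.ne_zero hq.ne_zero⟩
  have hp2 := hp.two_le
  have hq2 := hq.two_le
  have e1 : (1 : ℕ) ≠ p := by omega
  have e2 : (1 : ℕ) ≠ q := by omega
  have e3 : (1 : ℕ) ≠ p * q := by nlinarith
  have e4 : p ≠ p * q := by nlinarith
  have e5 : q ≠ p * q := by nlinarith
  rw [h1, Finset.sum_insert (by simp [e1, e2, e3]), Finset.sum_insert (by simp [hpq, e4]),
    Finset.sum_pair e5]
  ring

theorem sum_divisors_four_mul (f : ℕ → ℕ) (p : ℕ) (hp : p.Prime) (hp3 : 3 ≤ p) :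
    ∑ m ∈ (4 * p).divisors, f m = f 1 + f 2 + f 4 + f p + f (2 * p) + f (4 * p) := by
  have h4 : (4 : ℕ).divisors = {1, 2, 4} := by decide
  have h1 : (4 * p).divisors = ({1, 2, 4, p, 2 * p, 4 * p} : Finset ℕ) := by
    ext d
    simp only [Nat.mem_divisors, Finset.mem_insert, Finset.mem_singleton]
    constructor
    · rintro ⟨hd, -⟩
      obtain ⟨a, b, ha, hb, rfl⟩ := (Nat.dvd_mul).1 hd
      have ha' : a ∈ (4 : ℕ).divisors := Nat.mem_divisors.2 ⟨ha, by norm_num⟩
      rw [h4] at ha'
      simp only [Finset.mem_insert, Finset.mem_singleton] at ha'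
      rcases ha' with rfl | rfl | rfl <;> rcases (Nat.dvd_prime hp).1 hb with rfl | rfl <;> simp
    · rintro (rfl | rfl | rfl | rfl | rfl | rfl)
      · exact ⟨one_dvd _, by positivity⟩
      · exact ⟨Dvd.intro (2 * p) (by ring), by have := hp.pos; positivity⟩
      · exact ⟨Dvd.intro _ rfl, by have := hp.pos; positivity⟩
      · exact ⟨Dvd.intro_left _ rfl, by have := hp.pos; positivity⟩
      · exact ⟨Dvd.intro_left 2 (by ring), by have := hp.pos; positivity⟩
      · exact ⟨dvd_rfl, by have := hp.pos; positivity⟩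
  have n1 : (1 : ℕ) ∉ ({2, 4, p, 2 * p, 4 * p} : Finset ℕ) := by
    simp only [Finset.mem_insert, Finset.mem_singleton]; omega
  have n2 : (2 : ℕ) ∉ ({4, p, 2 * p, 4 * p} : Finset ℕ) := by
    simp only [Finset.mem_insert, Finset.mem_singleton]; omega
  have n3 : (4 : ℕ) ∉ ({p, 2 * p, 4 * p} : Finset ℕ) := by
    simp only [Finset.mem_insert, Finset.mem_singleton]
    rintro (h | h | h)
    · rw [← h] at hp; exact absurd hp (by decide)
    · have : p = 2 := by omega
      omega
    · omega
  have n4 : p ∉ ({2 * p, 4 * p} : Finset ℕ) := by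
    simp only [Finset.mem_insert, Finset.mem_singleton]; omega
  have n5 : 2 * p ≠ 4 * p := by omega
  rw [h1, Finset.sum_insert n1, Finset.sum_insert n2, Finset.sum_insert n3, Finset.sum_insert n4,
    Finset.sum_pair n5]
  ring

end basic


section main

variable {G : Type*} [Group G] [Finite G] {n : ℕ}

theorem big' (hbig : ∀ g : G, 3 ≤ orderOf g → cnt G (orderOf g) = n) (m : ℕ) (hm : 3 ≤ m) :
    cnt G m = 0 ∨ cnt G m = n := by
  by_cases h : ∃ g : G, orderOf g = m
  · obtain ⟨g, rfl⟩ := h
    exact Or.inr (hbig g hm)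
  · push Not at h
    exact Or.inl (cnt_eq_zero m h)

theorem odd_prime (hbig : ∀ g : G, 3 ≤ orderOf g → cnt G (orderOf g) = n) (p : ℕ) (hp : p.Prime)
    (hp3 : 3 ≤ p) (hpN : p ∣ Nat.card G) : cnt G p = n ∧ p ∣ 1 + n := by
  haveI : Fact p.Prime := ⟨hp⟩
  obtain ⟨x, hx⟩ := exists_prime_orderOf_dvd_card' (G := G) p hpN
  have h1 : cnt G p = n := by rw [← hx]; exact hbig x (hx ▸ hp3)
  refine ⟨h1, ?_⟩
  have := frob (G := G) p hpN
  rw [hp.sum_divisors, h1, cnt_one] at this
  rwa [add_comm] at this

theorem two_odd_primes (hbig : ∀ g : G, 3 ≤ orderOf g → cnt G (orderOf g) = n) (p q : ℕ)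
    (hp : p.Prime) (hq : q.Prime) (hp3 : 3 ≤ p) (hq3 : 3 ≤ q) (hpq : p ≠ q)
    (hpN : p ∣ Nat.card G) (hqN : q ∣ Nat.card G) : False := by
  obtain ⟨hcp, hdp⟩ := odd_prime hbig p hp hp3 hpN
  obtain ⟨hcq, -⟩ := odd_prime hbig q hq hq3 hqN
  have hco : Nat.Coprime p q := (Nat.coprime_primes hp hq).2 hpq
  have hpqN : p * q ∣ Nat.card G := hco.mul_dvd_of_dvd_of_dvd hpN hqN
  have h := frob (G := G) (p * q) hpqN
  rw [sum_divisors_pq _ p q hp hq hpq, cnt_one, hcp, hcq] at h
  have h' : p ∣ 1 + n + n + cnt G (p * q) := (Dvd.intro _ rfl).trans h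
  rcases big' hbig (p * q) (by nlinarith) with h0 | h0
  · rw [h0] at h'
    have h2 : p ∣ 2 * (1 + n) := Dvd.dvd.mul_left hdp 2
    have := Nat.dvd_sub h2 h'
    have e : 2 * (1 + n) - (1 + n + n + 0) = 1 := by omega
    rw [e] at this
    have := Nat.le_of_dvd one_pos this
    omega
  · rw [h0] at h'
    have h3 : p ∣ 3 * (1 + n) := Dvd.dvd.mul_left hdp 3
    have := Nat.dvd_sub h3 h'
    have e : 3 * (1 + n) - (1 + n + n + n) = 2 := by omega
    rw [e] at this
    have := Nat.le_of_dvd two_pos this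
    omega

theorem no_sq (hbig : ∀ g : G, 3 ≤ orderOf g → cnt G (orderOf g) = n) (p : ℕ) (hp : p.Prime)
    (hp3 : 3 ≤ p) (hpN : p ∣ Nat.card G) (g : G) : orderOf g ≠ p ^ 2 := by
  intro hg
  obtain ⟨hcp, hdp⟩ := odd_prime hbig p hp hp3 hpN
  have hp2N : p ^ 2 ∣ Nat.card G := hg ▸ orderOf_dvd_natCard g
  have hc : cnt G (p ^ 2) = n := by rw [← hg]; exact hbig g (by rw [hg]; nlinarith)
  have h := frob (G := G) (p ^ 2) hp2N
  rw [Nat.sum_divisors_prime_pow hp, Finset.sum_range_succ, Finset.sum_range_succ,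
    Finset.sum_range_one, pow_zero, pow_one, cnt_one, hcp, hc] at h
  have h' : p ∣ 1 + n + n := (dvd_pow_self p two_ne_zero).trans h
  have h2 : p ∣ 2 * (1 + n) := Dvd.dvd.mul_left hdp 2
  have := Nat.dvd_sub h2 h'
  have e : 2 * (1 + n) - (1 + n + n) = 1 := by omega
  rw [e] at this
  have := Nat.le_of_dvd one_pos this
  omega

theorem order_eq_prime (p : ℕ) (hp : p.Prime) (hno : ∀ g : G, orderOf g ≠ p ^ 2) (g : G) (j : ℕ)
    (hj : orderOf g = p ^ j) (hg : g ≠ 1) : orderOf g = p := by
  rcases j with _ | _ | j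
  · exact absurd (orderOf_eq_one_iff.1 (by simpa using hj)) hg
  · simpa using hj
  · exfalso
    apply hno (g ^ (p ^ j))
    rw [orderOf_pow_of_dvd (pow_ne_zero _ hp.ne_zero) (by rw [hj]; exact pow_dvd_pow p (by omega)),
      hj, Nat.pow_div (by omega) hp.pos]
    congr 1
    omega

theorem cnt_two (h1 : ∀ g : G, cnt G (orderOf g) = 1 ∨ cnt G (orderOf g) = n) (hn2 : 2 ∣ n)
    (h2N : 2 ∣ Nat.card G) : cnt G 2 = 1 := by
  haveI : Fact (Nat.Prime 2) := ⟨Nat.prime_two⟩
  obtain ⟨z, hz⟩ := exists_prime_orderOf_dvd_card' (G := G) 2 h2N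
  have h := frob (G := G) 2 h2N
  rw [Nat.prime_two.sum_divisors, cnt_one] at h
  rcases h1 z with h' | h' <;> rw [hz] at h'
  · exact h'
  · rw [h'] at h; omega

theorem invol_unique (hc : cnt G 2 = 1) (s t : G) (hs : orderOf s = 2) (ht : orderOf t = 2) :
    s = t := by
  obtain ⟨x, hx⟩ := Nat.card_eq_one_iff_exists.1 hc
  have a := hx ⟨s, hs⟩
  have b := hx ⟨t, ht⟩
  exact congrArg Subtype.val (a.trans b.symm)

theorem invol_central (hc : cnt G 2 = 1) (z : G) (hz : orderOf z = 2) (g : G) :
    g * z * g⁻¹ = z := by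
  apply invol_unique hc _ _ _ hz
  have := (MulAut.conj g).orderOf_eq z
  rw [MulAut.conj_apply] at this
  rw [this, hz]

theorem not_four_dvd (h1 : ∀ g : G, cnt G (orderOf g) = 1 ∨ cnt G (orderOf g) = n) (hn2 : 2 ∣ n)
    (hbig : ∀ g : G, 3 ≤ orderOf g → cnt G (orderOf g) = n) (p : ℕ) (hp : p.Prime)
    (hp3 : 3 ≤ p) (hpN : p ∣ Nat.card G) (h4N : 4 ∣ Nat.card G) : False := by
  have h2N : 2 ∣ Nat.card G := (by norm_num : 2 ∣ 4).trans h4N
  have hc2 := cnt_two h1 hn2 h2N
  obtain ⟨hcp, hdp⟩ := odd_prime hbig p hp hp3 hpN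
  haveI : Fact (Nat.Prime 2) := ⟨Nat.prime_two⟩
  haveI : Fact p.Prime := ⟨hp⟩
  obtain ⟨z, hz⟩ := exists_prime_orderOf_dvd_card' (G := G) 2 h2N
  obtain ⟨x, hx⟩ := exists_prime_orderOf_dvd_card' (G := G) p hpN
  have hcomm : Commute z x := by
    have h := invol_central hc2 z hz x
    have : x * z = z * x := by
      calc x * z = (x * z * x⁻¹) * x := by group
        _ = z * x := by rw [h]
    exact this.symm
  have hzx : orderOf (z * x) = 2 * p := by
    rw [hcomm.orderOf_mul_eq_mul_orderOf_of_coprime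
      (by rw [hz, hx]; exact (Nat.coprime_primes Nat.prime_two hp).2 (by omega)), hz, hx]
  have hc2p : cnt G (2 * p) = n := by rw [← hzx]; exact hbig _ (by rw [hzx]; omega)
  have h4 := frob (G := G) 4 h4N
  rw [sum_divisors_four, cnt_one, hc2] at h4
  have hc4 : cnt G 4 = n := by
    rcases big' hbig 4 (by norm_num) with h0 | h0
    · rw [h0] at h4; omega
    · exact h0
  have hco : Nat.Coprime 4 p := by
    refine ((hp.coprime_iff_not_dvd).2 fun h => ?_).symm
    have h' : p ∣ 2 := hp.dvd_of_dvd_pow (show p ∣ 2 ^ 2 from h)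
    have := Nat.le_of_dvd two_pos h'
    omega
  have h4p : 4 * p ∣ Nat.card G := hco.mul_dvd_of_dvd_of_dvd h4N hpN
  have h := frob (G := G) (4 * p) h4p
  rw [sum_divisors_four_mul _ p hp hp3, cnt_one, hc2, hc4, hcp, hc2p] at h
  have h' : p ∣ 1 + 1 + n + n + n + cnt G (4 * p) := (Dvd.intro_left 4 rfl).trans h
  rcases big' hbig (4 * p) (by omega) with h0 | h0
  · rw [h0] at h'
    have h3 : p ∣ 3 * (1 + n) := Dvd.dvd.mul_left hdp 3
    have := Nat.dvd_sub h3 h'
    have e : 3 * (1 + n) - (1 + 1 + n + n + n + 0) = 1 := by omega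
    rw [e] at this
    have := Nat.le_of_dvd one_pos this
    omega
  · rw [h0] at h'
    have h3 : p ∣ 4 * (1 + n) := Dvd.dvd.mul_left hdp 4
    have := Nat.dvd_sub h3 h'
    have e : 4 * (1 + n) - (1 + 1 + n + n + n + n) = 2 := by omega
    rw [e] at this
    have := Nat.le_of_dvd two_pos this
    omega


theorem quat_case (hc2 : cnt G 2 = 1) (h8 : 8 ∣ Nat.card G) (hno8 : ∀ g : G, orderOf g ≠ 8)
    (hpow : ∀ g : G, ∃ j, orderOf g = 2 ^ j) (x : G) (hx : orderOf x = 4) :
    Nonempty (G ≃* QuaternionGroup 2) := by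
  classical
  have hord : ∀ g : G, orderOf g = 1 ∨ orderOf g = 2 ∨ orderOf g = 4 := by
    intro g
    obtain ⟨j, hj⟩ := hpow g
    rcases j with _ | _ | _ | j
    · left; simpa using hj
    · right; left; simpa using hj
    · right; right; simpa using hj
    · exfalso
      apply hno8 (g ^ (2 ^ j))
      rw [orderOf_pow_of_dvd (by positivity) (by rw [hj]; exact pow_dvd_pow 2 (by omega)), hj,
        Nat.pow_div (by omega) (by norm_num)]
      have : j + 1 + 1 + 1 - j = 3 := by omega
      rw [this]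
  obtain ⟨z, hzdef⟩ : ∃ z : G, z = x ^ 2 := ⟨_, rfl⟩
  have hz : orderOf z = 2 := by
    rw [hzdef, orderOf_pow_of_dvd two_ne_zero (by rw [hx]; norm_num), hx]
  have huniq := invol_unique hc2
  have hx4 : x ^ 4 = 1 := by rw [← hx]; exact pow_orderOf_eq_one x
  have hsq : ∀ g : G, g ^ 2 = 1 ∨ g ^ 2 = z := by
    intro g
    rcases hord g with h | h | h
    · left; rw [orderOf_eq_one_iff.1 h]; simp
    · left; rw [← h]; exact pow_orderOf_eq_one g
    · right
      apply huniq _ _ _ hz
      rw [orderOf_pow_of_dvd two_ne_zero (by rw [h]; norm_num), h]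
  have hsq1 : ∀ g : G, g ^ 2 = 1 → g = 1 ∨ g = z := by
    intro g hg
    rcases hord g with h | h | h
    · left; exact orderOf_eq_one_iff.1 h
    · right; exact huniq _ _ h hz
    · exfalso
      have := orderOf_dvd_of_pow_eq_one hg
      rw [h] at this
      omega
  have hconj : ∀ g : G, g * x * g⁻¹ = x ∨ g * x * g⁻¹ = x⁻¹ := by
    intro g
    have key : g * x * g⁻¹ = (g * x) ^ 2 * x⁻¹ * (g ^ 2)⁻¹ := by
      rw [pow_two, pow_two]; group
    rcases hsq (g * x) with e1 | e1 <;> rcases hsq g with e2 | e2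
    · right; rw [key, e1, e2]; simp
    · left; rw [key, e1, e2, hzdef]
      calc (1 : G) * x⁻¹ * (x ^ 2)⁻¹ = x * (x ^ 4)⁻¹ := by group
        _ = x := by rw [hx4]; simp
    · left; rw [key, e1, e2, hzdef]; group
    · right; rw [key, e1, e2, hzdef]; group
  have hcent : ∀ y : G, x * y = y * x → y = 1 ∨ y = z ∨ y = x ∨ y = x⁻¹ := by
    intro y hy
    rcases hsq y with e | e
    · rcases hsq1 y e with h | h
      · exact Or.inl h
      · exact Or.inr (Or.inl h)
    · have hcomm : Commute x y := hy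
      have h2 : (x * y) ^ 2 = 1 := by
        rw [hcomm.mul_pow, e, hzdef, ← pow_add]
        exact hx4
      rcases hsq1 (x * y) h2 with h | h
      · right; right; right
        exact eq_inv_of_mul_eq_one_right h
      · right; right; left
        have : x * y = x * x := by rw [h, hzdef, pow_two]
        exact mul_left_cancel this
  have hC4 : Nat.card (Subgroup.centralizer ({x} : Set G)) ≤ 4 := by
    have hsub : ((Subgroup.centralizer ({x} : Set G) : Subgroup G) : Set G) ⊆
        ((({1, z, x, x⁻¹} : Finset G) : Finset G) : Set G) := by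
      intro y hy
      have hy' : x * y = y * x := Subgroup.mem_centralizer_iff.1 hy x rfl
      have := hcent y hy'
      simp only [Finset.coe_insert, Finset.coe_singleton, Set.mem_insert_iff, Set.mem_singleton_iff]
      exact this
    have h1 := Set.ncard_le_ncard hsub (Finset.finite_toSet _)
    rw [Set.ncard_coe_finset] at h1
    have h2 : Nat.card (Subgroup.centralizer ({x} : Set G)) =
        ((Subgroup.centralizer ({x} : Set G) : Subgroup G) : Set G).ncard := rfl
    rw [h2]
    exact h1.trans Finset.card_le_four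
  have hidx : (Subgroup.centralizer ({x} : Set G)).index ≤ 2 := by
    rw [Cfsg.Agent.H70.frob_class_card x]
    have hsub : conjugatesOf x ⊆ ((({x, x⁻¹} : Finset G) : Finset G) : Set G) := by
      intro y hy
      obtain ⟨c, hc⟩ := isConj_iff.1 (show IsConj x y from hy)
      simp only [Finset.coe_insert, Finset.coe_singleton, Set.mem_insert_iff, Set.mem_singleton_iff]
      rw [← hc]
      exact hconj c
    have h1 := Set.ncard_le_ncard hsub (Finset.finite_toSet _)
    rw [Set.ncard_coe_finset] at h1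
    exact h1.trans Finset.card_le_two
  have hN : Nat.card G = 8 := by
    have h1 := Subgroup.card_mul_index (Subgroup.centralizer ({x} : Set G))
    have h2 : Nat.card G ≤ 8 := by
      rw [← h1]
      calc _ ≤ 4 * 2 := Nat.mul_le_mul hC4 hidx
        _ = 8 := by norm_num
    have h3 := Nat.le_of_dvd Nat.card_pos h8
    omega
  rcases Cfsg.Agent.H61.cyclic_or_quaternion hN (fun s t hs ht => huniq s t hs ht) with hcyc | hq
  · exfalso
    obtain ⟨g, hg⟩ := hcyc.exists_generator
    exact hno8 g (by rw [orderOf_eq_card_of_forall_mem_zpowers hg, hN])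
  · exact hq

theorem mixed_case (hc2 : cnt G 2 = 1) (p : ℕ) (hp : p.Prime) (hp3 : 3 ≤ p) (k : ℕ) (hk : 1 ≤ k)
    (hN : Nat.card G = 2 * p ^ k) (hno : ∀ g : G, orderOf g ≠ p ^ 2) :
    ∃ (P : Type) (_ : Group P) (_ : Finite P), p.Prime ∧ p ≠ 2 ∧ IsPGroup p P ∧
      Monoid.exponent P = p ∧ Nonempty (G ≃* Multiplicative (ZMod 2) × P) := by
  classical
  haveI : Fact p.Prime := ⟨hp⟩
  haveI : Fact (Nat.Prime 2) := ⟨Nat.prime_two⟩
  obtain ⟨P⟩ : Nonempty (Sylow p G) := inferInstance
  have h2p : ¬ p ∣ 2 := fun h => by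
    have := Nat.le_of_dvd two_pos h
    omega
  have hPcard : Nat.card (P : Subgroup G) = p ^ k := by
    rw [Sylow.card_eq_multiplicity, hN]
    congr 1
    rw [Nat.factorization_mul (by norm_num) (pow_ne_zero _ hp.ne_zero), Finsupp.add_apply,
      Nat.factorization_eq_zero_of_not_dvd h2p, hp.factorization_pow]
    simp
  have h2N : 2 ∣ Nat.card G := by rw [hN]; exact Dvd.intro _ rfl
  obtain ⟨z, hz⟩ := exists_prime_orderOf_dvd_card' (G := G) 2 h2N
  have hzc : ∀ g : G, g * z = z * g := by
    intro g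
    have h := invol_central hc2 z hz g
    calc g * z = (g * z * g⁻¹) * g := by group
      _ = z * g := by rw [h]
  have hKcard : Nat.card (Subgroup.zpowers z) = 2 := by rw [Nat.card_zpowers, hz]
  have hcomm : ∀ (a : Subgroup.zpowers z) (b : (P : Subgroup G)),
      Commute ((Subgroup.zpowers z).subtype a) ((P : Subgroup G).subtype b) := by
    intro a b
    obtain ⟨i, hi⟩ := Subgroup.mem_zpowers_iff.1 a.2
    have hzb : Commute z (b : G) := (hzc b).symm
    show Commute (a : G) (b : G)
    rw [← hi]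
    exact hzb.zpow_left i
  let f : Subgroup.zpowers z × (P : Subgroup G) →* G :=
    MonoidHom.noncommCoprod (Subgroup.zpowers z).subtype (P : Subgroup G).subtype hcomm
  have hinj : Function.Injective f := by
    rw [MonoidHom.noncommCoprod_injective]
    refine ⟨Subgroup.subtype_injective _, Subgroup.subtype_injective _, ?_⟩
    rw [Subgroup.range_subtype, Subgroup.range_subtype]
    exact IsPGroup.disjoint_of_ne (p₁ := 2) (p₂ := p) (by omega) _ _
      (IsPGroup.of_card (n := 1) (by rw [hKcard, pow_one])) P.isPGroup'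
  have hbij : Function.Bijective f := by
    rw [Nat.bijective_iff_injective_and_card]
    refine ⟨hinj, ?_⟩
    rw [Nat.card_prod, hKcard, hPcard, hN]
  let e1 : Subgroup.zpowers z × (P : Subgroup G) ≃* G := MulEquiv.ofBijective f hbij
  let eK : Subgroup.zpowers z ≃* Multiplicative (ZMod 2) :=
    mulEquivOfPrimeCardEq (p := 2) hKcard (by rw [Nat.card_eq_fintype_card]; rfl)
  let eP : Shrink.{0} (P : Subgroup G) ≃* (P : Subgroup G) := Shrink.mulEquiv
  haveI : Finite (Shrink.{0} (P : Subgroup G)) := Finite.of_equiv _ (equivShrink _)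
  have hnoP : ∀ g : (P : Subgroup G), orderOf g ≠ p ^ 2 := by
    intro g
    rw [← Subgroup.orderOf_coe]
    exact hno g
  haveI : Nontrivial (P : Subgroup G) := by
    rw [← Finite.one_lt_card_iff_nontrivial, hPcard]
    exact Nat.one_lt_pow (by omega) hp.one_lt
  have hexpP : Monoid.exponent (P : Subgroup G) = p := by
    rw [Monoid.exponent_eq_prime_iff hp]
    intro g hg
    have hdvd : orderOf g ∣ p ^ k := hPcard ▸ orderOf_dvd_natCard g
    obtain ⟨j, -, hj⟩ := (Nat.dvd_prime_pow hp).1 hdvd
    exact order_eq_prime p hp hnoP g j hj hg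
  refine ⟨Shrink.{0} (P : Subgroup G), inferInstance, inferInstance, hp, by omega, ?_, ?_, ?_⟩
  · exact P.isPGroup'.of_equiv eP.symm
  · rw [Monoid.exponent_eq_of_mulEquiv eP]
    exact hexpP
  · exact ⟨e1.symm.trans (MulEquiv.prodCongr eK eP.symm)⟩


theorem main_thm (n : ℕ) (hn : n ≠ 1)
    (h : ((fun m : ℕ => Nat.card {g : G // orderOf g = m}) '' Set.range (orderOf : G → ℕ)) =
      {1, n}) :
    (∃ p : ℕ, p.Prime ∧ IsPGroup p G ∧ 3 ≤ Nat.card G ∧ Monoid.exponent G = p) ∨
      Nonempty (G ≃* QuaternionGroup 2) ∨ (IsCyclic G ∧ Nat.card G = 4) ∨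
      (∃ (p : ℕ) (P : Type) (_ : Group P) (_ : Finite P), p.Prime ∧ p ≠ 2 ∧ IsPGroup p P ∧
        Monoid.exponent P = p ∧ Nonempty (G ≃* Multiplicative (ZMod 2) × P)) := by
  classical
  have h1 : ∀ g : G, cnt G (orderOf g) = 1 ∨ cnt G (orderOf g) = n := by
    intro g
    have : cnt G (orderOf g) ∈ ({1, n} : Set ℕ) := by
      rw [← h]; exact ⟨orderOf g, ⟨g, rfl⟩, rfl⟩
    simpa using this
  obtain ⟨gn, hgn⟩ : ∃ g : G, cnt G (orderOf g) = n := by
    have : n ∈ ({1, n} : Set ℕ) := by simp
    rw [← h] at this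
    obtain ⟨m, ⟨g, rfl⟩, hm⟩ := this
    exact ⟨g, hm⟩
  have hnpos : 2 ≤ n := by
    have := cnt_pos gn
    rw [hgn] at this
    omega
  have hNpos : 0 < Nat.card G := Nat.card_pos
  by_cases hA : ∀ g : G, orderOf g ≤ 2
  · -- elementary abelian 2-group
    left
    have hgn2 : orderOf gn = 2 := by
      have h0 := orderOf_pos gn
      have h2 := hA gn
      rcases Nat.lt_or_ge (orderOf gn) 2 with h | h
      · have : orderOf gn = 1 := by omega
        rw [this, cnt_one] at hgn
        omega
      · omega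
    have hsq : ∀ g : G, g ^ 2 = 1 := by
      intro g
      have h0 := orderOf_pos g
      have h2 := hA g
      have : orderOf g ∣ 2 := by
        rcases Nat.lt_or_ge (orderOf g) 2 with h | h
        · have : orderOf g = 1 := by omega
          rw [this]; exact one_dvd 2
        · have : orderOf g = 2 := by omega
          rw [this]
      exact orderOf_dvd_iff_pow_eq_one.1 this
    have hcard : 3 ≤ Nat.card G := by
      have := Cfsg.Agent.H21.sum_card_orderOf_le (G := G) {1, 2}
      rw [Finset.sum_pair (by norm_num)] at this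
      have e1 : Nat.card {g : G // orderOf g = 1} = 1 := cnt_one
      have e2 : Nat.card {g : G // orderOf g = 2} = n := by rw [← hgn2]; exact hgn
      omega
    refine ⟨2, Nat.prime_two, fun g => ⟨1, by rw [pow_one]; exact hsq g⟩, hcard, ?_⟩
    haveI : Nontrivial G := by
      rw [← Finite.one_lt_card_iff_nontrivial]; omega
    haveI : Fact (Nat.Prime 2) := ⟨Nat.prime_two⟩
    rw [Monoid.exponent_eq_prime_iff Nat.prime_two]
    intro g hg
    exact orderOf_eq_prime (hsq g) hg
  · push Not at hA
    obtain ⟨g0, hg0⟩ := hA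
    have hg03 : 3 ≤ orderOf g0 := by omega
    have hn2 : 2 ∣ n := by
      have he := cnt_even (G := G) (orderOf g0) hg03
      rcases h1 g0 with h' | h'
      · rw [h'] at he; omega
      · rwa [h'] at he
    have hbig : ∀ g : G, 3 ≤ orderOf g → cnt G (orderOf g) = n := by
      intro g hg
      have he := cnt_even (G := G) (orderOf g) hg
      rcases h1 g with h' | h'
      · rw [h'] at he; omega
      · exact h'
    have hN3 : 3 ≤ Nat.card G := hg03.trans orderOf_le_card
    by_cases h2N : 2 ∣ Nat.card G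
    · have hc2 := cnt_two h1 hn2 h2N
      by_cases hodd : ∃ p : ℕ, p.Prime ∧ 3 ≤ p ∧ p ∣ Nat.card G
      · -- mixed
        obtain ⟨p, hp, hp3, hpN⟩ := hodd
        right; right; right
        have h4 : ¬ 4 ∣ Nat.card G := fun h4 => not_four_dvd h1 hn2 hbig p hp hp3 hpN h4
        obtain ⟨M, hM⟩ := h2N
        have hModd : ¬ 2 ∣ M := by
          rintro ⟨M', rfl⟩
          exact h4 ⟨M', by rw [hM]; ring⟩
        have hM0 : M ≠ 0 := by rintro rfl; omega
        obtain ⟨k, hMp⟩ : ∃ k, M = p ^ k := by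
          refine ⟨_, Nat.eq_prime_pow_of_unique_prime_dvd hM0 ?_⟩
          intro q hq hqM
          have hqN : q ∣ Nat.card G := hqM.trans (hM ▸ Dvd.intro_left 2 rfl)
          have hq3 : 3 ≤ q := by
            have := hq.two_le
            rcases Nat.lt_or_ge q 3 with h | h
            · have : q = 2 := by omega
              subst this; exact absurd hqM hModd
            · exact h
          by_contra hne
          exact two_odd_primes hbig q p hq hp hq3 hp3 hne hqN hpN
        have hk : 1 ≤ k := by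
          rcases Nat.eq_zero_or_pos k with h0 | h0
          · exfalso
            rw [h0, pow_zero] at hMp
            rw [hMp] at hM
            rw [hM] at hpN
            have := Nat.le_of_dvd (by norm_num) hpN
            omega
          · exact h0
        obtain ⟨P, iG, iF, hh⟩ := mixed_case hc2 p hp hp3 k hk (by rw [hM, hMp])
          (no_sq hbig p hp hp3 hpN)
        exact ⟨p, P, iG, iF, hh⟩
      · -- 2-group
        push Not at hodd
        obtain ⟨a, hN2⟩ : ∃ a, Nat.card G = 2 ^ a := by
          refine ⟨_, Nat.eq_prime_pow_of_unique_prime_dvd hNpos.ne' ?_⟩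
          intro q hq hqN
          by_contra hne
          have := hq.two_le
          exact hodd q hq (by omega) hqN
        have hpow : ∀ g : G, ∃ j, orderOf g = 2 ^ j := by
          intro g
          have hdvd : orderOf g ∣ 2 ^ a := hN2 ▸ orderOf_dvd_natCard g
          obtain ⟨j, -, hj⟩ := (Nat.dvd_prime_pow Nat.prime_two).1 hdvd
          exact ⟨j, hj⟩
        obtain ⟨x, hx⟩ : ∃ x : G, orderOf x = 4 := by
          obtain ⟨j, hj⟩ := hpow g0
          have hj2 : 2 ≤ j := by
            by_contra hlt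
            have : j = 0 ∨ j = 1 := by omega
            rcases this with rfl | rfl
            · rw [pow_zero] at hj; omega
            · rw [pow_one] at hj; omega
          obtain ⟨i, rfl⟩ := Nat.exists_eq_add_of_le hj2
          refine ⟨g0 ^ (2 ^ i), ?_⟩
          rw [orderOf_pow_of_dvd (by positivity) (by rw [hj]; exact pow_dvd_pow 2 (by omega)), hj,
            Nat.pow_div (by omega) (by norm_num)]
          have : 2 + i - i = 2 := by omega
          rw [this]
        have h4N : 4 ∣ Nat.card G := hx ▸ orderOf_dvd_natCard x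
        have hc4 : cnt G 4 = n := by rw [← hx]; exact hbig x (by rw [hx]; norm_num)
        by_cases h8 : 8 ∣ Nat.card G
        · right; left
          have hf8 := frob (G := G) 8 h8
          rw [sum_divisors_eight, cnt_one, hc2, hc4] at hf8
          have hno8 : ∀ g : G, orderOf g ≠ 8 := by
            intro g hg
            have : cnt G 8 = n := by rw [← hg]; exact hbig g (by rw [hg]; norm_num)
            rw [this] at hf8
            omega
          exact quat_case hc2 h8 hno8 hpow x hx
        · right; right; left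
          have hN4 : Nat.card G = 4 := by
            rw [hN2] at h4N h8 ⊢
            have ha2 : 2 ≤ a := by
              by_contra hlt
              have : a = 0 ∨ a = 1 := by omega
              rcases this with h | h <;> rw [h] at h4N <;> omega
            have ha3 : a < 3 := by
              by_contra hge
              exact h8 (pow_dvd_pow 2 (show 3 ≤ a by omega))
            have : a = 2 := by omega
            rw [this]
            norm_num
          exact ⟨isCyclic_of_orderOf_eq_card x (by rw [hx, hN4]), hN4⟩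
    · -- odd order
      left
      have hN1 : Nat.card G ≠ 1 := by omega
      obtain ⟨p, hpdef⟩ : ∃ p, p = (Nat.card G).minFac := ⟨_, rfl⟩
      have hp : p.Prime := hpdef ▸ Nat.minFac_prime hN1
      have hpN : p ∣ Nat.card G := hpdef ▸ Nat.minFac_dvd _
      have hp3 : 3 ≤ p := by
        have := hp.two_le
        rcases Nat.lt_or_ge p 3 with h | h
        · have : p = 2 := by omega
          rw [this] at hpN; exact absurd hpN h2N
        · exact h
      obtain ⟨k, hNp⟩ : ∃ k, Nat.card G = p ^ k := by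
        refine ⟨_, Nat.eq_prime_pow_of_unique_prime_dvd hNpos.ne' ?_⟩
        intro q hq hqN
        have hq3 : 3 ≤ q := by
          have := hq.two_le
          rcases Nat.lt_or_ge q 3 with h | h
          · have : q = 2 := by omega
            rw [this] at hqN; exact absurd hqN h2N
          · exact h
        by_contra hne
        exact two_odd_primes hbig q p hq hp hq3 hp3 hne hqN hpN
      refine ⟨p, hp, IsPGroup.of_card hNp, hN3, ?_⟩
      haveI : Nontrivial G := by
        rw [← Finite.one_lt_card_iff_nontrivial]; omega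
      rw [Monoid.exponent_eq_prime_iff hp]
      intro g hg
      have hdvd : orderOf g ∣ p ^ k := hNp ▸ orderOf_dvd_natCard g
      obtain ⟨j, -, hj⟩ := (Nat.dvd_prime_pow hp).1 hdvd
      exact order_eq_prime p hp (no_sq hbig p hp hp3 hpN) g j hj hg

end main

end Cfsg.Agent.H21.TwoCounts
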